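import Mathlib
import Cfsg.Prelude.Def_GeometricClasses

/-!
A linear map whose square is a scalar permutes the parts of some decomposition into subspaces of
equal dimension.
-/

set_option autoImplicit false

namespace CfsgLib.MaxSub.InvolDecomp

variable {F : Type*} [Field F]

/-- Normal form: free pairs and eigenvectors. -/
theorem exists_basis {V : Type*} [AddCommGroup V] [Module F V] [FiniteDimensional F V]
    (f : V →ₗ[F] V) (z : F) (hz : z ≠ 0) (hf : ∀ x, f (f x) = z • x) :
    ∃ (r s : ℕ) (B : Module.Basis ((Fin r ⊕ Fin r) ⊕ Fin s) F V),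
      (∀ i, f (B (Sum.inl (Sum.inl i))) = B (Sum.inl (Sum.inr i))) ∧
      (∀ i, f (B (Sum.inl (Sum.inr i))) = z • B (Sum.inl (Sum.inl i))) ∧
      (∀ k, ∃ c : F, f (B (Sum.inr k)) = c • B (Sum.inr k)) := by
  classical
  let P : ℕ → Prop := fun r => ∃ v : Fin r → V, LinearIndependent F (Sum.elim v (fun i => f (v i)))
  have hb : ∀ r, P r → r ≤ Module.finrank F V := fun r ⟨v, hv⟩ => by
    have := hv.fintype_card_le_finrank
    simp at this; omega
  have h0 : P 0 := ⟨Fin.elim0, linearIndependent_empty_type⟩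
  set r := Nat.findGreatest P (Module.finrank F V) with hr
  obtain ⟨v, hv⟩ : P r := Nat.findGreatest_spec (Nat.zero_le _) h0
  have hmax : ¬ P (r + 1) := fun h => by
    have h1 := Nat.le_findGreatest (hb _ h) h
    omega
  set W := Submodule.span F (Set.range (Sum.elim v (fun i => f (v i)))) with hW
  have hvW : ∀ i, v i ∈ W := fun i => Submodule.subset_span ⟨Sum.inl i, rfl⟩
  have hfvW : ∀ i, f (v i) ∈ W := fun i => Submodule.subset_span ⟨Sum.inr i, rfl⟩
  have hfW : ∀ w ∈ W, f w ∈ W := fun w hw => by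
    have : W ≤ W.comap f := by
      rw [hW, Submodule.span_le]
      rintro _ ⟨(i | i), rfl⟩
      · exact hfvW i
      · show f (f (v i)) ∈ W
        rw [hf]; exact W.smul_mem _ (hvW i)
    exact this hw
  let E : Set V := {u | ∃ c : F, f u = c • u}
  have hspan : ∀ x, x ∈ W ⊔ Submodule.span F E := by
    intro x
    by_cases hxW : x ∈ W
    · exact Submodule.mem_sup_left hxW
    -- some combination of x and f x lies in W
    have hdep : ∃ α β : F, (α ≠ 0 ∨ β ≠ 0) ∧ α • x + β • f x ∈ W := by
      by_contra h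
      simp only [not_exists, not_and] at h
      refine hmax ⟨Fin.snoc v x, ?_⟩
      rw [Fintype.linearIndependent_iff]
      intro g hg
      simp only [Fintype.sum_sum_type, Sum.elim_inl, Sum.elim_inr, Fin.sum_univ_castSucc,
        Fin.snoc_castSucc, Fin.snoc_last] at hg
      have hlast : g (Sum.inl (Fin.last r)) = 0 ∧ g (Sum.inr (Fin.last r)) = 0 := by
        by_contra hne
        refine h _ _ (not_and_or.1 hne) ?_
        have : g (Sum.inl (Fin.last r)) • x + g (Sum.inr (Fin.last r)) • f x
            = -((∑ i, g (Sum.inl (Fin.castSucc i)) • v i) + ∑ i, g (Sum.inr (Fin.castSucc i)) • f (v i)) := by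
          linear_combination (norm := module) hg
        rw [this]
        exact W.neg_mem (W.add_mem (W.sum_mem fun i _ => W.smul_mem _ (hvW i))
          (W.sum_mem fun i _ => W.smul_mem _ (hfvW i)))
      rw [hlast.1, hlast.2, zero_smul, zero_smul, add_zero, add_zero] at hg
      have := Fintype.linearIndependent_iff.1 hv
        (Sum.elim (fun i => g (Sum.inl (Fin.castSucc i))) (fun i => g (Sum.inr (Fin.castSucc i))))
        (by simpa [Fintype.sum_sum_type] using hg)
      rintro (i | i)
      · exact Fin.lastCases hlast.1 (fun j => this (Sum.inl j)) i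
      · exact Fin.lastCases hlast.2 (fun j => this (Sum.inr j)) i
    obtain ⟨α, β, hne, hmem⟩ := hdep
    have hβ : β ≠ 0 := by
      rintro rfl
      rcases hne with hα | hβ
      · rw [zero_smul, add_zero] at hmem
        exact hxW ((W.smul_mem_iff hα).1 hmem)
      · exact hβ rfl
    set c := -α / β with hc
    have hw : f x - c • x ∈ W := by
      have : f x - c • x = β⁻¹ • (α • x + β • f x) := by
        rw [smul_add, smul_smul, smul_smul, inv_mul_cancel₀ hβ, one_smul, hc]
        match_scalars <;> field_simp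
      rw [this]; exact W.smul_mem _ hmem
    have hc2 : c * c = z := by
      by_contra hne'
      have h1 : (z - c * c) • x ∈ W := by
        have : (z - c * c) • x = f (f x - c • x) + c • (f x - c • x) := by
          rw [map_sub, map_smul, hf]; module
        rw [this]; exact W.add_mem (hfW _ hw) (W.smul_mem _ hw)
      exact hxW ((W.smul_mem_iff (sub_ne_zero.2 (Ne.symm hne'))).1 h1)
    obtain ⟨g, hg⟩ := (Submodule.mem_span_range_iff_exists_fun F).1 hw
    simp only [Fintype.sum_sum_type, Sum.elim_inl, Sum.elim_inr] at hg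
    have h2 : f (f x - c • x) + c • (f x - c • x) = 0 := by
      rw [map_sub, map_smul, hf, ← hc2]; module
    rw [← hg, map_add, map_sum, map_sum] at h2
    simp only [map_smul, hf] at h2
    have h3 := Fintype.linearIndependent_iff.1 hv
      (Sum.elim (fun i => g (Sum.inr i) * z + c * g (Sum.inl i)) (fun i => g (Sum.inl i) + c * g (Sum.inr i)))
      (by
        simp only [Fintype.sum_sum_type, Sum.elim_inl, Sum.elim_inr, add_smul, Finset.sum_add_distrib,
          mul_smul, ← Finset.smul_sum]
        linear_combination (norm := module) h2)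
    set y := ∑ i, g (Sum.inr i) • v i with hy
    have hy' : f y - c • y = f x - c • x := by
      rw [← hg, hy, map_sum, Finset.smul_sum, ← Finset.sum_sub_distrib, ← Finset.sum_add_distrib]
      refine Finset.sum_congr rfl fun i _ => ?_
      have h4 : g (Sum.inl i) + c * g (Sum.inr i) = 0 := h3 (Sum.inr i)
      rw [map_smul, eq_neg_of_add_eq_zero_left h4]
      module
    have hxy : x - y ∈ E := ⟨c, by
      rw [map_sub]; linear_combination (norm := module) -hy'⟩
    have : x = y + (x - y) := by abel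
    rw [this]
    exact Submodule.add_mem_sup (W.sum_mem fun i _ => W.smul_mem _ (hvW i)) (Submodule.subset_span hxy)
  set S := Set.range (Sum.elim v (fun i => f (v i))) with hS
  have hli : LinearIndepOn F id S := hv.linearIndepOn_id
  have hsub : S ⊆ S ∪ E := Set.subset_union_left
  have htop : (⊤ : Submodule F V) ≤ Submodule.span F (S ∪ E) := by
    intro x _; rw [Submodule.span_union]; exact hspan x
  let T := hli.extend hsub
  let B0 : Module.Basis T F V := Module.Basis.extendLe hli hsub htop
  have hST : S ⊆ T := hli.subset_extend hsub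
  have hTE : T ⊆ S ∪ E := hli.extend_subset hsub
  haveI : Finite T := B0.linearIndependent.finite
  haveI : Fintype T := Fintype.ofFinite T
  let R : Type _ := {x : V // x ∈ T ∧ x ∉ S}
  haveI : Finite R := Finite.of_injective (fun x : R => (⟨x.1, x.2.1⟩ : T))
    (fun x y h => Subtype.ext (congrArg (fun z : T => z.1) h))
  let eR := (Finite.equivFin R).symm
  let φ : (Fin r ⊕ Fin r) ⊕ Fin (Nat.card R) → T := Sum.elim
    (fun i => ⟨Sum.elim v (fun i => f (v i)) i, hST ⟨i, rfl⟩⟩) (fun k => ⟨(eR k).1, (eR k).2.1⟩)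
  have hφ : Function.Bijective φ := by
    constructor
    · rintro (i | i) (j | j) h
      · exact congrArg Sum.inl (hv.injective (congrArg Subtype.val h))
      · exact absurd ⟨i, congrArg Subtype.val h⟩ (eR j).2.2
      · exact absurd ⟨j, (congrArg Subtype.val h).symm⟩ (eR i).2.2
      · exact congrArg Sum.inr (eR.injective (Subtype.ext (congrArg Subtype.val h : (φ (Sum.inr i)).1 = _)))
    · rintro ⟨x, hx⟩
      by_cases hxS : x ∈ S
      · obtain ⟨i, hi⟩ := hxS
        exact ⟨Sum.inl i, Subtype.ext hi⟩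
      · exact ⟨Sum.inr (eR.symm ⟨x, hx, hxS⟩), Subtype.ext (by simp [φ])⟩
  let e := Equiv.ofBijective φ hφ
  have hB : ∀ i, (B0.reindex e.symm) i = (φ i).1 := fun i => by
    simp only [Module.Basis.reindex_apply, Equiv.symm_symm]; exact Module.Basis.extendLe_apply_self hli hsub htop (e i)
  refine ⟨r, Nat.card R, B0.reindex e.symm, fun i => ?_, fun i => ?_, fun k => ?_⟩
  · rw [hB, hB]; rfl
  · rw [hB, hB]; exact hf _
  · rw [hB]
    rcases hTE (eR k).2.1 with h | h
    · exact absurd h (eR k).2.2
    · exact h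

/-- Swapped pairs can be distributed over blocks. -/
theorem exists_placing (a t r : ℕ) (ha : 1 ≤ a) (hr : 2 * r ≤ a * t) :
    ∃ (p : Fin r ⊕ Fin r → Fin t × Fin a) (σ : Fin t → Fin t), Function.Injective p ∧
      (∀ i, (p (Sum.inr i)).1 = σ (p (Sum.inl i)).1) ∧ (∀ i, (p (Sum.inl i)).1 = σ (p (Sum.inr i)).1) ∧
      Function.Involutive σ ∧ ∀ k, k ∉ Set.range p → σ k.1 = k.1 := by
  classical
  set h := a / 2 with hh
  obtain ⟨m, u, w, hu, hw, hwu⟩ : ∃ m u w : ℕ, t = m + m + u ∧ r = m * a + w ∧ w ≤ u * h := by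
    rcases (by omega : a = 2 * h ∨ a = 2 * h + 1) with e | e
    · refine ⟨0, t, r, by omega, by simp, ?_⟩
      rw [e, Nat.mul_assoc, Nat.mul_comm h t] at hr
      omega
    · by_cases hle : r ≤ t * h
      · exact ⟨0, t, r, by omega, by simp, hle⟩
      · obtain ⟨m, hm⟩ := Nat.exists_eq_add_of_le (Nat.le_of_lt (not_le.1 hle))
        rw [e, hm] at hr
        obtain ⟨u, hu⟩ := Nat.exists_eq_add_of_le (show m + m ≤ t by ring_nf at hr ⊢; omega)
        exact ⟨m, u, u * h, hu, by rw [hm, hu, e]; ring, le_refl _⟩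
  let J := (Fin m ⊕ Fin m) ⊕ Fin u
  let eJ : J ≃ Fin t := Fintype.equivFinOfCardEq (by simp [J]; omega)
  let eR : Fin r ≃ (Fin m × Fin a) ⊕ Fin w := (Fintype.equivFinOfCardEq (by simp; omega)).symm
  obtain ⟨g⟩ : Nonempty (Fin w ↪ Fin u × Fin h) := Function.Embedding.nonempty_of_card_le (by simpa using hwu)
  let L : (Fin m × Fin a) ⊕ Fin w → J × Fin a := Sum.elim (fun x => (Sum.inl (Sum.inl x.1), x.2))
    (fun k => (Sum.inr (g k).1, ⟨2 * (g k).2.1, by have := (g k).2.2; omega⟩))
  let R : (Fin m × Fin a) ⊕ Fin w → J × Fin a := Sum.elim (fun x => (Sum.inl (Sum.inr x.1), x.2))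
    (fun k => (Sum.inr (g k).1, ⟨2 * (g k).2.1 + 1, by have := (g k).2.2; omega⟩))
  let τ : J → J := Sum.map Sum.swap id
  have hτ : ∀ j, τ (τ j) = j := by rintro ((j | j) | j) <;> rfl
  have hL : ∀ x, τ (L x).1 = (R x).1 := by rintro (x | x) <;> rfl
  let p0 : Fin r ⊕ Fin r → J × Fin a := Sum.elim (L ∘ eR) (R ∘ eR)
  have hp0 : Function.Injective p0 := by
    have hl : Function.Injective L := by
      rintro (⟨j, i⟩ | k) (⟨j', i'⟩ | k') e <;> simp [L, J] at e
      · simp [e]
      · exact congrArg Sum.inr (g.injective (Prod.ext e.1 (Fin.ext (by omega))))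
    have hr' : Function.Injective R := by
      rintro (⟨j, i⟩ | k) (⟨j', i'⟩ | k') e <;> simp [R, J] at e
      · simp [e]
      · exact congrArg Sum.inr (g.injective (Prod.ext e.1 (Fin.ext (by omega))))
    have hne : ∀ x y, L x ≠ R y := by
      rintro (⟨j, i⟩ | k) (⟨j', i'⟩ | k') e <;> simp [L, R, J] at e <;> omega
    rintro (x | x) (y | y) e
    · exact congrArg Sum.inl (eR.injective (hl e))
    · exact absurd e (hne _ _)
    · exact absurd e.symm (hne _ _)
    · exact congrArg Sum.inr (eR.injective (hr' e))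
  refine ⟨fun x => (eJ (p0 x).1, (p0 x).2), fun j => eJ (τ (eJ.symm j)), ?_, ?_, ?_, ?_, ?_⟩
  · intro x y e
    exact hp0 (Prod.ext (eJ.injective (Prod.ext_iff.1 e).1) (Prod.ext_iff.1 e).2)
  · intro i
    simp [p0, hL]
  · intro i
    simp [p0, ← hL, hτ]
  · intro j
    simp [hτ]
  · rintro ⟨j, i⟩ hk
    obtain ⟨j, rfl⟩ := eJ.surjective j
    rcases j with (j | j) | j
    · exact absurd ⟨Sum.inl (eR.symm (Sum.inl (j, i))), by simp [p0, L]⟩ hk
    · exact absurd ⟨Sum.inr (eR.symm (Sum.inl (j, i))), by simp [p0, R]⟩ hk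
    · simp [τ]

theorem exists_decomp {n : ℕ} (f : (Fin n → F) →ₗ[F] (Fin n → F)) (z : F) (hz : z ≠ 0)
    (hf : ∀ x, f (f x) = z • x) (a t : ℕ) (ha : 1 ≤ a) (ht : 2 ≤ t) (hn : n = a * t) :
    ∃ D : Fin t → Submodule F (Fin n → F), Cfsg.Geo.IsMDecomposition a D ∧
      ∃ σ : Equiv.Perm (Fin t), ∀ j, (D j).map f = D (σ j) := by
  classical
  obtain ⟨r, s, B, hB1, hB2, hB3⟩ := exists_basis f z hz hf
  have hcard : r + r + s = a * t := by
    have := Module.finrank_eq_card_basis B
    simp at this; omega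
  obtain ⟨p, σ, hp, hp1, hp2, hσ, hfix⟩ := exists_placing a t r ha (by omega)
  have hs : Nat.card {k // k ∉ Set.range p} = s := by
    rw [Nat.card_eq_fintype_card]
    have := Fintype.card_subtype_compl (fun k => k ∈ Set.range p)
    rw [this]
    have h2 : Fintype.card {k // k ∈ Set.range p} = r + r := by
      have h3 := Nat.card_range_of_injective hp
      rw [Nat.card_sum, Nat.card_fin] at h3
      rw [← h3, Nat.card_eq_fintype_card]
    rw [h2]
    simp [Fintype.card_prod]
    rw [Nat.mul_comm t a]; omega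
  let q := (Finite.equivFinOfCardEq hs).symm
  let φ : (Fin r ⊕ Fin r) ⊕ Fin s → Fin t × Fin a := Sum.elim p (fun k => (q k).1)
  have hφ : Function.Bijective φ := by
    constructor
    · rintro (i | i) (j | j) e
      · exact congrArg Sum.inl (hp e)
      · exact absurd ⟨i, e⟩ (q j).2
      · exact absurd ⟨j, e.symm⟩ (q i).2
      · exact congrArg Sum.inr (q.injective (Subtype.ext e))
    · intro k
      by_cases hk : k ∈ Set.range p
      · obtain ⟨i, hi⟩ := hk; exact ⟨Sum.inl i, hi⟩
      · exact ⟨Sum.inr (q.symm ⟨k, hk⟩), by simp [φ]⟩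
  let C := B.reindex (Equiv.ofBijective φ hφ)
  let D : Fin t → Submodule F (Fin n → F) := fun j => Submodule.span F (C '' {k | k.1 = j})
  have hfr : ∀ j, Module.finrank F (D j) = a := by
    intro j
    have hli : LinearIndependent F (fun i : Fin a => C (j, i)) :=
      C.linearIndependent.comp _ (fun i i' h => (Prod.ext_iff.1 h).2)
    have : C '' {k | k.1 = j} = Set.range (fun i : Fin a => C (j, i)) := by
      ext x; constructor
      · rintro ⟨⟨j', i⟩, rfl, rfl⟩; exact ⟨i, rfl⟩
      · rintro ⟨i, rfl⟩; exact ⟨(j, i), rfl, rfl⟩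
    show Module.finrank F (Submodule.span F _) = a
    rw [this, finrank_span_eq_card hli, Fintype.card_fin]
  refine ⟨D, ⟨ht, ha, hfr, ?_, ?_⟩, hσ.toPerm σ, fun j => ?_⟩
  · rw [iSupIndep_def]
    intro j
    refine (C.linearIndependent.disjoint_span_image (s := {k | k.1 = j}) (t := {k | k.1 ≠ j})
      (Set.disjoint_left.2 fun k h1 h2 => h2 h1)).mono_right ?_
    exact iSup₂_le fun j' hj' => Submodule.span_mono (Set.image_mono fun k (hk : k.1 = j') (hk' : k.1 = j) => hj' (hk.symm.trans hk'))
  · rw [eq_top_iff, ← C.span_eq, Submodule.span_le]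
    rintro _ ⟨k, rfl⟩
    exact le_iSup D k.1 (Submodule.subset_span ⟨k, rfl, rfl⟩)
  · have hC : ∀ i, C (φ i) = B i := fun i => by
      simp [C, Module.Basis.reindex_apply]
    have hmem : ∀ i, f (B i) ∈ D (σ (φ i).1) := by
      rintro ((i | i) | k)
      · rw [hB1, ← hC]
        exact Submodule.subset_span ⟨_, hp1 i, rfl⟩
      · rw [hB2, ← hC]
        exact Submodule.smul_mem _ _ (Submodule.subset_span ⟨_, hp2 i, rfl⟩)
      · obtain ⟨c, hc⟩ := hB3 k
        rw [hc, ← hC]
        exact Submodule.smul_mem _ _ (Submodule.subset_span ⟨_, (hfix _ (q k).2).symm, rfl⟩)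
    have hinj : Function.Injective f := fun x y h => by
      have := congrArg f h; rw [hf, hf] at this; exact smul_right_injective _ hz this
    refine Submodule.eq_of_le_of_finrank_eq ?_ ?_
    · rw [Submodule.map_le_iff_le_comap, Submodule.span_le]
      rintro _ ⟨k, hk, rfl⟩
      obtain ⟨i, rfl⟩ := hφ.2 k
      show f _ ∈ D (σ j)
      rw [hC, ← (hk : (φ i).1 = j)]
      exact hmem i
    · rw [← (Submodule.equivMapOfInjective f hinj (D j)).finrank_eq, hfr, hfr]

end CfsgLib.MaxSub.InvolDecomp
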