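import Mathlib
import Cfsg.Agent.Lib.MaxSub.InvolDecomp

/-!
Normal forms and centralisers of linear maps whose square is a scalar.
-/

set_option autoImplicit false

namespace CfsgLib.MaxSub.InvolNormal

variable {F : Type*} [Field F] {V : Type*} [AddCommGroup V] [Module F V] [FiniteDimensional F V]

/-- Norms of the quadratic algebra cover every scalar. -/
theorem exists_norm [Finite F] (z δ : F) (hz : z ≠ 0) : ∃ a b : F, a * a - z * (b * b) = δ := by
  haveI := Fintype.ofFinite F
  by_cases h2 : ringChar F = 2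
  · haveI : CharP F 2 := ringChar.eq_iff.1 h2
    obtain ⟨a, ha⟩ := FiniteField.isSquare_of_char_two h2 δ
    exact ⟨a, 0, by rw [ha]; ring⟩
  · obtain ⟨a, b, h⟩ := FiniteField.exists_root_sum_quadratic
      (f := Polynomial.X ^ 2) (g := Polynomial.C (-z) * Polynomial.X ^ 2 - Polynomial.C δ)
      (Polynomial.degree_X_pow 2) (by
        rw [Polynomial.degree_sub_eq_left_of_degree_lt] <;>
          simp [Polynomial.degree_C_mul, hz]
        exact lt_of_le_of_lt Polynomial.degree_C_le (by norm_num))
      (FiniteField.odd_card_of_char_ne_two h2)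
    simp at h
    exact ⟨a, b, by linear_combination h⟩

/-- The centraliser realises every determinant. -/
theorem exists_centralizer [Finite F] (f : V →ₗ[F] V) (z : F) (hz : z ≠ 0) (hf : ∀ x, f (f x) = z • x)
    (hV : 0 < Module.finrank F V) (δ : F) :
    ∃ h : V →ₗ[F] V, LinearMap.det h = δ ∧ ∀ x, h (f x) = f (h x) := by
  classical
  obtain ⟨r, s, B, hB1, hB2, hB3⟩ := CfsgLib.MaxSub.InvolDecomp.exists_basis f z hz hf
  by_cases hs : 0 < s
  · let d : (Fin r ⊕ Fin r) ⊕ Fin s → F := fun i => if i = Sum.inr ⟨0, hs⟩ then δ else 1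
    let h := B.constr F fun i => d i • B i
    have hh : ∀ i, h (B i) = d i • B i := fun i => B.constr_basis F _ i
    refine ⟨h, ?_, fun x => LinearMap.congr_fun (B.ext (f₁ := h ∘ₗ f) (f₂ := f ∘ₗ h) ?_) x⟩
    · have : LinearMap.toMatrix B B h = Matrix.diagonal d := by
        ext i j
        rw [LinearMap.toMatrix_apply, hh, map_smul, Module.Basis.repr_self]
        by_cases hij : i = j
        · subst hij; simp
        · simp [hij, Finsupp.single_eq_of_ne (Ne.symm hij)]
      rw [← LinearMap.det_toMatrix B, this, Matrix.det_diagonal]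
      simp [d]
    · rintro ((i | i) | k)
      · simp [hh, hB1, d]
      · simp [hh, hB2, d]
      · obtain ⟨c, hc⟩ := hB3 k
        show h (f (B (Sum.inr k))) = f (h (B (Sum.inr k)))
        rw [hc, map_smul, hh, map_smul, hc, smul_comm]
  · have hs0 : s = 0 := by omega
    have hr : 0 < r := by
      have := Module.finrank_eq_card_basis B
      simp at this; omega
    obtain ⟨a, b, hab⟩ := exists_norm z δ hz
    let i0 : Fin r := ⟨0, hr⟩
    let T : (Fin r ⊕ Fin r) ⊕ Fin s → V := fun i =>
      if i = Sum.inl (Sum.inl i0) then a • B (Sum.inl (Sum.inl i0)) + b • B (Sum.inl (Sum.inr i0))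
      else if i = Sum.inl (Sum.inr i0) then (z * b) • B (Sum.inl (Sum.inl i0)) + a • B (Sum.inl (Sum.inr i0))
      else B i
    let h := B.constr F T
    have hh : ∀ i, h (B i) = T i := fun i => B.constr_basis F _ i
    refine ⟨h, ?_, fun x => LinearMap.congr_fun (B.ext (f₁ := h ∘ₗ f) (f₂ := f ∘ₗ h) ?_) x⟩
    · rw [← LinearMap.det_toMatrix B]
      let p : ((Fin r ⊕ Fin r) ⊕ Fin s) → Prop := fun i => i = Sum.inl (Sum.inl i0) ∨ i = Sum.inl (Sum.inr i0)
      have hM : ∀ i j, LinearMap.toMatrix B B h i j = B.repr (T j) i := fun i j => by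
        rw [LinearMap.toMatrix_apply, hh]
      let e : Fin 2 ≃ {i // p i} :=
        Equiv.ofBijective ![⟨Sum.inl (Sum.inl i0), Or.inl rfl⟩, ⟨Sum.inl (Sum.inr i0), Or.inr rfl⟩] ⟨by
          intro x y hxy; fin_cases x <;> fin_cases y <;> simp [Subtype.ext_iff] at hxy ⊢, by
          rintro ⟨i, rfl | rfl⟩
          · exact ⟨0, rfl⟩
          · exact ⟨1, rfl⟩⟩
      rw [Matrix.twoBlockTriangular_det _ p]
      · have h1 : (Matrix.toSquareBlockProp (LinearMap.toMatrix B B h) p).det = δ := by
          rw [← Matrix.det_submatrix_equiv_self e, Matrix.det_fin_two]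
          have he0 : (e 0).1 = Sum.inl (Sum.inl i0) := rfl
          have he1 : (e 1).1 = Sum.inl (Sum.inr i0) := rfl
          simp [Matrix.toSquareBlockProp, Matrix.submatrix, hM, he0, he1, T, Finsupp.single_apply]
          linear_combination hab
        have h2 : Matrix.toSquareBlockProp (LinearMap.toMatrix B B h) (fun i => ¬ p i) = 1 := by
          ext ⟨i, hi⟩ ⟨j, hj⟩
          simp only [p, not_or] at hj
          simp [Matrix.toSquareBlockProp, hM, T, hj.1, hj.2, Matrix.one_apply, Finsupp.single_apply, eq_comm]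
        rw [h1, h2, Matrix.det_one, mul_one]
      · intro i hi j hj
        simp only [p, not_or] at hi
        rcases hj with rfl | rfl <;> simp [hM, T, Finsupp.single_apply, Ne.symm hi.1, Ne.symm hi.2]
    · rintro ((i | i) | k)
      · by_cases hi : i = i0
        · subst hi; simp [hh, hB1, hB2, T, smul_smul]; module
        · simp [hh, hB1, T, hi]
      · by_cases hi : i = i0
        · subst hi; simp [hh, hB1, hB2, T, smul_smul]; module
        · simp [hh, hB2, T, hi]
      · exact absurd k.2 (by omega)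

/-- Eigenbasis when the scalar is a square in odd characteristic. -/
theorem exists_eigenbasis (h2 : (2 : F) ≠ 0) (f : V →ₗ[F] V) (μ : F) (hμ : μ ≠ 0)
    (hf : ∀ x, f (f x) = (μ * μ) • x) :
    ∃ (k l : ℕ) (B : Module.Basis (Fin k ⊕ Fin l) F V), (∀ i, f (B (Sum.inl i)) = μ • B (Sum.inl i)) ∧
      (∀ j, f (B (Sum.inr j)) = (-μ) • B (Sum.inr j)) ∧ LinearMap.det f = μ ^ (k + l) * (-1) ^ l := by
  classical
  let P := LinearMap.ker (f - μ • LinearMap.id)
  let N := LinearMap.ker (f + μ • LinearMap.id)
  have hP : ∀ x, x ∈ P ↔ f x = μ • x := fun x => by simp [P, LinearMap.mem_ker, sub_eq_zero]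
  have hN : ∀ x, x ∈ N ↔ f x = (-μ) • x := fun x => by
    simp [N, LinearMap.mem_ker, neg_smul, eq_neg_iff_add_eq_zero]
  have hc : IsCompl P N := by
    refine ⟨disjoint_iff_inf_le.2 fun x hx => ?_, codisjoint_iff.2 (eq_top_iff.2 fun x _ => ?_)⟩
    · have h1 := (hP x).1 hx.1
      rw [(hN x).1 hx.2] at h1
      have h3 : (2 * μ) • x = 0 := by linear_combination (norm := module) -h1
      simpa [h2, hμ] using h3
    · have hx : x = (2 * μ)⁻¹ • (f x + μ • x) + -((2 * μ)⁻¹ • (f x - μ • x)) := by
        match_scalars <;> field_simp <;> ring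
      rw [hx]
      refine Submodule.add_mem_sup ?_ ?_
      · rw [hP, map_smul, map_add, map_smul, hf]; module
      · rw [hN, map_neg, map_smul, map_sub, map_smul, hf]; module
  let bP := Module.finBasis F P
  let bN := Module.finBasis F N
  let B := (bP.prod bN).map (Submodule.prodEquivOfIsCompl P N hc)
  have h1 : ∀ i, f (B (Sum.inl i)) = μ • B (Sum.inl i) := fun i => by
    refine (hP _).1 ?_
    simp [B]
  have h3 : ∀ j, f (B (Sum.inr j)) = (-μ) • B (Sum.inr j) := fun j => by
    refine (hN _).1 ?_
    simp [B]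
  refine ⟨_, _, B, h1, h3, ?_⟩
  have hM : LinearMap.toMatrix B B f = Matrix.diagonal (Sum.elim (fun _ => μ) (fun _ => -μ)) := by
    ext i j
    rw [LinearMap.toMatrix_apply]
    rcases j with j | j
    · rw [h1, map_smul, Module.Basis.repr_self]
      by_cases hij : i = Sum.inl j
      · subst hij; simp
      · simp [hij, Finsupp.single_eq_of_ne (Ne.symm hij)]
    · rw [h3, map_smul, Module.Basis.repr_self]
      by_cases hij : i = Sum.inr j
      · subst hij; simp
      · simp [hij, Finsupp.single_eq_of_ne (Ne.symm hij)]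
  rw [← LinearMap.det_toMatrix B, hM, Matrix.det_diagonal, Fintype.prod_sum_type]
  simp
  ring

end CfsgLib.MaxSub.InvolNormal
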