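import Mathlib
import Cfsg.Agent.Lib.Symplectic.Basic
import Cfsg.Agent.Lib.Symplectic.Order

/-!
Counting pairs of complementary Lagrangian subspaces.
-/

set_option autoImplicit false
open scoped Matrix

namespace CfsgLib.MaxSub.LagrPairs
open CfsgLib.Symplectic.Basic

variable {F : Type*} [Field F] {d : ℕ}

/-- Complementary totally isotropic pairs. -/
abbrev Pair (d : ℕ) (F : Type*) [Field F] :=
  {P : Submodule F (V d F) × Submodule F (V d F) // IsCompl P.1 P.2 ∧ (∀ u ∈ P.1, ∀ v ∈ P.1, Cfsg.sympForm d F u v = 0) ∧ (∀ u ∈ P.2, ∀ v ∈ P.2, Cfsg.sympForm d F u v = 0)}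

theorem iso1 (P : Pair d F) {u v : V d F} (hu : u ∈ P.1.1) (hv : v ∈ P.1.1) : B u v = 0 := by
  rw [B_eq]; exact P.2.2.1 u hu v hv

theorem iso2 (P : Pair d F) {u v : V d F} (hu : u ∈ P.1.2) (hv : v ∈ P.1.2) : B u v = 0 := by
  rw [B_eq]; exact P.2.2.2 u hu v hv

theorem eq_zero2 (P : Pair d F) {w : V d F} (hw : w ∈ P.1.2) (h : ∀ u ∈ P.1.1, B u w = 0) : w = 0 := by
  refine eq_zero_of_B_left fun y => ?_
  have hy : y ∈ P.1.1 ⊔ P.1.2 := by rw [P.2.1.sup_eq_top]; trivial
  obtain ⟨a, ha, b, hb, rfl⟩ := Submodule.mem_sup.1 hy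
  rw [map_add, B_swap w a, h a ha, iso2 P hw hb, neg_zero, add_zero]

theorem finrank_le (P : Pair d F) : Module.finrank F P.1.2 ≤ Module.finrank F P.1.1 := by
  let φ : P.1.2 →ₗ[F] Module.Dual F P.1.1 := ((B (F := F) (m := d)).flip.compl₁₂ P.1.2.subtype P.1.1.subtype)
  have hφ : Function.Injective φ := by
    rw [injective_iff_map_eq_zero]
    intro w hw
    exact Subtype.ext (eq_zero2 P w.2 fun u hu => LinearMap.congr_fun hw ⟨u, hu⟩)
  exact (LinearMap.finrank_le_finrank_of_injective hφ).trans (le_of_eq Subspace.dual_finrank_eq)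

theorem finrank_eq (P : Pair d F) : Module.finrank F P.1.1 = d ∧ Module.finrank F P.1.2 = d := by
  have h1 := finrank_le P
  have h2 := finrank_le (⟨(P.1.2, P.1.1), P.2.1.symm, P.2.2.2, P.2.2.1⟩ : Pair d F)
  have h3 := Submodule.finrank_add_eq_of_isCompl P.2.1
  rw [Module.finrank_fintype_fun_eq_card, Fintype.card_sum, Fintype.card_fin] at h3
  simp only at h2
  omega

/-- The standard vectors. -/
def e (i : Fin d ⊕ Fin d) : V d F := Pi.single i 1

variable (P : Pair d F) (u : {u : Fin d → P.1.1 // LinearIndependent F u})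

/-- Pairing of the second subspace with a basis of the first one. -/
noncomputable def φ : P.1.2 ≃ₗ[F] (Fin d → F) :=
  LinearEquiv.ofInjectiveOfFinrankEq ((LinearMap.pi fun i => B (u.1 i : V d F)).comp P.1.2.subtype)
    (by
      rw [injective_iff_map_eq_zero]
      intro w hw
      refine Subtype.ext (eq_zero2 P w.2 fun a ha => ?_)
      have htop : Submodule.span F (Set.range u.1) = ⊤ :=
        u.2.span_eq_top_of_card_eq_finrank' (by rw [Fintype.card_fin, (finrank_eq P).1])
      have ha' : (⟨a, ha⟩ : P.1.1) ∈ Submodule.span F (Set.range u.1) := htop ▸ trivial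
      obtain ⟨c, hc⟩ := (Submodule.mem_span_range_iff_exists_fun F).1 ha'
      have hc' := congrArg Subtype.val hc
      simp only [AddSubmonoidClass.coe_finset_sum, Submodule.coe_smul] at hc'
      rw [← hc', map_sum, LinearMap.sum_apply]
      refine Finset.sum_eq_zero fun i _ => ?_
      have hi : B (u.1 i : V d F) (w : V d F) = 0 := congrFun hw i
      rw [map_smul, LinearMap.smul_apply, hi, smul_zero])
    (by rw [(finrank_eq P).2, Module.finrank_fintype_fun_eq_card, Fintype.card_fin])

theorem φ_apply (w : P.1.2) (i : Fin d) : φ P u w i = B (u.1 i : V d F) w := rfl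

/-- The images of the standard vectors. -/
noncomputable def img : Fin d ⊕ Fin d → V d F :=
  Sum.elim (fun i => (u.1 i : V d F)) (fun j => ((φ P u).symm (-Pi.single j 1) : V d F))

theorem B_img (s t : Fin d ⊕ Fin d) : B (img P u s) (img P u t) = B (e s : V d F) (e t) := by
  have key : ∀ i j : Fin d, B (u.1 i : V d F) ((φ P u).symm (-Pi.single j 1) : V d F)
      = -(Pi.single j 1 : Fin d → F) i := fun i j => by
    rw [← φ_apply, LinearEquiv.apply_symm_apply, Pi.neg_apply]
  rcases s with i | i <;> rcases t with j | j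
  · simp [img, iso1 P (u.1 i).2 (u.1 j).2, e, B_single_inl]
  · rw [show B (img P u (Sum.inl i)) (img P u (Sum.inr j)) = -(Pi.single j 1 : Fin d → F) i from key i j]
    simp [e, B_single_inr, Pi.single_apply, eq_comm]
  · rw [show B (img P u (Sum.inr i)) (img P u (Sum.inl j)) = _ from B_swap _ _,
      show B (img P u (Sum.inl j)) (img P u (Sum.inr i)) = -(Pi.single i 1 : Fin d → F) j from key j i]
    simp [e, B_single_inl, Pi.single_apply, eq_comm]
  · simp [img, iso2 P ((φ P u).symm _).2 ((φ P u).symm _).2, e, B_single_inr]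

/-- The corresponding symplectic matrix. -/
noncomputable def toSp : Sp d F :=
  ⟨Matrix.of fun s t => img P u t s, (mem_iff _).2 fun a b => by
    let M : Matrix (Fin d ⊕ Fin d) (Fin d ⊕ Fin d) F := Matrix.of fun s t => img P u t s
    have h : (B (F := F) (m := d)).compl₁₂ M.mulVecLin M.mulVecLin = B := by
      refine LinearMap.ext_basis (Pi.basisFun F _) (Pi.basisFun F _) fun s t => ?_
      have hcol : ∀ t, M *ᵥ Pi.single t 1 = img P u t := fun t => by
        rw [Matrix.mulVec_single_one]; rfl
      simpa [hcol, e] using B_img P u s t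
    exact LinearMap.congr_fun₂ h a b⟩

theorem toSp_single (t : Fin d ⊕ Fin d) : (toSp P u).1 *ᵥ e t = img P u t := by
  rw [e, Matrix.mulVec_single_one]; rfl

theorem card_eq [Fintype F] :
    Nat.card (Pair d F) * ∏ i : Fin d, (Fintype.card F ^ d - Fintype.card F ^ (i : ℕ)) = Nat.card (Sp d F) := by
  classical
  have hfib : ∀ P : Pair d F, Nat.card {u : Fin d → P.1.1 // LinearIndependent F u}
      = ∏ i : Fin d, (Fintype.card F ^ d - Fintype.card F ^ (i : ℕ)) := fun P => by
    have h := card_linearIndependent (K := F) (V := P.1.1) (k := d) (by rw [(finrank_eq P).1])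
    rw [(finrank_eq P).1] at h
    exact h
  have hb : Function.Bijective (fun x : Σ P : Pair d F, {u : Fin d → P.1.1 // LinearIndependent F u} => toSp x.1 x.2) := by
    constructor
    · rintro ⟨P, u⟩ ⟨P', u'⟩ h
      have himg : ∀ t, img P u t = img P' u' t := fun t => by
        rw [← toSp_single, ← toSp_single]
        exact congrArg (fun A : Sp d F => A.1 *ᵥ e t) h
      have hspan : ∀ (Q : Pair d F) (v : {u : Fin d → Q.1.1 // LinearIndependent F u}),
          Q.1.1 = Submodule.span F (Set.range fun i => img Q v (Sum.inl i)) ∧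
          Q.1.2 = Submodule.span F (Set.range fun i => img Q v (Sum.inr i)) := by
        intro Q v
        constructor
        · refine (Submodule.eq_of_le_of_finrank_eq ?_ ?_).symm
          · rw [Submodule.span_le]; rintro _ ⟨i, rfl⟩; exact (v.1 i).2
          · rw [(finrank_eq Q).1]
            exact (finrank_span_eq_card (v.2.map' Q.1.1.subtype Q.1.1.ker_subtype)).trans (Fintype.card_fin d)
        · refine (Submodule.eq_of_le_of_finrank_eq ?_ ?_).symm
          · rw [Submodule.span_le]; rintro _ ⟨i, rfl⟩; exact ((φ Q v).symm _).2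
          · rw [(finrank_eq Q).2]
            have h0 := (Pi.basisFun F (Fin d)).linearIndependent.map' (-(φ Q v).symm.toLinearMap) (by
                rw [LinearMap.ker_eq_bot]; intro a b hab; exact (φ Q v).symm.injective (neg_injective hab))
            have hl : LinearIndependent F fun j : Fin d => (φ Q v).symm (-Pi.single j 1) := by
              have he : (fun j : Fin d => (φ Q v).symm (-Pi.single j 1))
                  = ⇑(-(φ Q v).symm.toLinearMap) ∘ ⇑(Pi.basisFun F (Fin d)) := funext fun j => by simp [map_neg]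
              rw [he]; exact h0
            exact (finrank_span_eq_card (hl.map' Q.1.2.subtype Q.1.2.ker_subtype)).trans (Fintype.card_fin d)
      obtain rfl : P = P' := Subtype.ext (Prod.ext (by
        rw [(hspan P u).1, (hspan P' u').1]; simp [himg]) (by
        rw [(hspan P u).2, (hspan P' u').2]; simp [himg]))
      obtain rfl : u = u' := Subtype.ext (funext fun i => Subtype.ext (himg (Sum.inl i)))
      rfl
    · intro A
      let U := Submodule.span F (Set.range fun i => A.1 *ᵥ (e (Sum.inl i) : V d F))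
      let W := Submodule.span F (Set.range fun i => A.1 *ᵥ (e (Sum.inr i) : V d F))
      have hsup : U ⊔ W = ⊤ := by
        rw [eq_top_iff]
        intro y _
        have hy : y = A.1 *ᵥ ((A⁻¹).1 *ᵥ y) := (mulVec_cancel_inv A y).symm
        have hx : (A⁻¹).1 *ᵥ y = ∑ t, ((A⁻¹).1 *ᵥ y) t • (e t : V d F) := by
          funext s; simp [e, Finset.sum_apply, Pi.single_apply]
        rw [hy, hx, Matrix.mulVec_sum]
        refine Submodule.sum_mem _ fun t _ => ?_
        rw [Matrix.mulVec_smul]
        refine Submodule.smul_mem _ _ ?_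
        rcases t with i | i
        · exact Submodule.mem_sup_left (Submodule.subset_span ⟨i, rfl⟩)
        · exact Submodule.mem_sup_right (Submodule.subset_span ⟨i, rfl⟩)
      have hiso : ∀ g : Fin d → Fin d ⊕ Fin d, (∀ i j, B (e (g i) : V d F) (e (g j)) = 0) →
          ∀ a ∈ Submodule.span F (Set.range fun i => A.1 *ᵥ (e (g i) : V d F)),
          ∀ b ∈ Submodule.span F (Set.range fun i => A.1 *ᵥ (e (g i) : V d F)), Cfsg.sympForm d F a b = 0 := by
        intro g hg a ha b hb
        obtain ⟨c, rfl⟩ := (Submodule.mem_span_range_iff_exists_fun F).1 ha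
        obtain ⟨c', rfl⟩ := (Submodule.mem_span_range_iff_exists_fun F).1 hb
        rw [← B_eq]
        simp [map_sum, B_map, hg]
      have h1 := hiso Sum.inl (fun i j => by simp [e, B_single_inl])
      have h2 := hiso Sum.inr (fun i j => by simp [e, B_single_inr])
      have hcompl : IsCompl U W := ⟨disjoint_iff_inf_le.2 fun a ha => by
        rw [Submodule.mem_bot]
        refine eq_zero_of_B_left fun y => ?_
        have hy : y ∈ U ⊔ W := hsup ▸ trivial
        obtain ⟨b, hb, c, hc, rfl⟩ := Submodule.mem_sup.1 hy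
        rw [map_add, B_eq, B_eq, h1 a ha.1 b hb, h2 a ha.2 c hc, add_zero], codisjoint_iff.2 hsup⟩
      let P : Pair d F := ⟨(U, W), hcompl, h1, h2⟩
      have hli : LinearIndependent F fun i : Fin d => A.1 *ᵥ (e (Sum.inl i) : V d F) :=
        ((Pi.linearIndependent_single_one (Fin d ⊕ Fin d) F).comp Sum.inl Sum.inl_injective).map' A.1.mulVecLin
          (by
            rw [LinearMap.ker_eq_bot]
            intro a b hab
            rw [← mulVec_inv_cancel A a, show A.1 *ᵥ a = A.1 *ᵥ b from hab, mulVec_inv_cancel])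
      let u : {u : Fin d → P.1.1 // LinearIndependent F u} :=
        ⟨fun i => ⟨_, Submodule.subset_span ⟨i, rfl⟩⟩, LinearIndependent.of_comp P.1.1.subtype hli⟩
      refine ⟨⟨P, u⟩, ext_mulVec fun v => ?_⟩
      have heq : ∀ t, img P u t = A.1 *ᵥ e t := by
        rintro (i | j)
        · rfl
        · show ((φ P u).symm (-Pi.single j 1) : V d F) = A.1 *ᵥ e (Sum.inr j)
          have : (φ P u).symm (-Pi.single j 1) = ⟨_, Submodule.subset_span ⟨j, rfl⟩⟩ := by
            rw [LinearEquiv.symm_apply_eq]
            funext i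
            rw [φ_apply]
            show _ = B (A.1 *ᵥ e (Sum.inl i)) (A.1 *ᵥ e (Sum.inr j))
            rw [B_map]
            simp [e, B_single_inr, Pi.single_apply, eq_comm]
          rw [this]
      have hv : v = ∑ t, v t • (e t : V d F) := by
        funext s; simp [e, Finset.sum_apply, Pi.single_apply]
      rw [hv, Matrix.mulVec_sum, Matrix.mulVec_sum]
      refine Finset.sum_congr rfl fun t _ => ?_
      rw [Matrix.mulVec_smul, Matrix.mulVec_smul]
      show _ • ((toSp P u).1 *ᵥ e t) = _
      rw [toSp_single, heq]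
  haveI : Finite (Submodule F (V d F)) :=
    Finite.of_injective (fun W : Submodule F (V d F) => (W : Set (V d F))) SetLike.coe_injective
  haveI : Fintype (Pair d F) := Fintype.ofFinite _
  rw [← Nat.card_congr (Equiv.ofBijective _ hb), Nat.card_sigma]
  simp only [hfib, Finset.sum_const, Finset.card_univ, smul_eq_mul, Nat.card_eq_fintype_card]

/-- A prime divisor of the number of pairs, other than the characteristic, divides some `q^e+1`. -/
theorem exists_dvd [Fintype F] (r : ℕ) [Fact r.Prime] (hrq : ¬ r ∣ Fintype.card F)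
    (h : r ∣ Nat.card (Pair d F)) : ∃ i < d, r ∣ Fintype.card F ^ (i + 1) + 1 := by
  have hr : r.Prime := Fact.out
  set q := Fintype.card F
  have hq1 : 1 < q := Fintype.one_lt_card
  have hGL : ∏ i : Fin d, (q ^ d - q ^ (i : ℕ))
      = q ^ (d * (d - 1) / 2) * ∏ i ∈ Finset.range d, (q ^ (i + 1) - 1) := by
    rw [Fin.prod_univ_eq_prod_range (fun i => q ^ d - q ^ i) d, ← Finset.sum_range_id,
      ← Finset.prod_pow_eq_pow_sum, ← Finset.prod_range_reflect (fun i => q ^ (i + 1) - 1) d,
      ← Finset.prod_mul_distrib]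
    refine Finset.prod_congr rfl fun i hi => ?_
    have := Finset.mem_range.1 hi
    rw [Nat.mul_sub, mul_one, ← pow_add, show i + (d - 1 - i + 1) = d by omega]
  have hsq : ∏ i ∈ Finset.range d, (q ^ (2 * (i + 1)) - 1)
      = (∏ i ∈ Finset.range d, (q ^ (i + 1) - 1)) * ∏ i ∈ Finset.range d, (q ^ (i + 1) + 1) := by
    rw [← Finset.prod_mul_distrib]
    refine Finset.prod_congr rfl fun i _ => ?_
    rw [mul_comm 2, pow_mul, mul_comm, ← Nat.sq_sub_sq, one_pow]
  have hc := card_eq (F := F) (d := d)
  rw [CfsgLib.Symplectic.Order.card_Sp, hGL, hsq] at hc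
  have hpos : 0 < ∏ i ∈ Finset.range d, (q ^ (i + 1) - 1) :=
    Finset.prod_pos fun i _ => Nat.sub_pos_of_lt (Nat.one_lt_pow (by omega) hq1)
  have hc' : Nat.card (Pair d F) * q ^ (d * (d - 1) / 2) = q ^ (d ^ 2) * ∏ i ∈ Finset.range d, (q ^ (i + 1) + 1) := by
    refine Nat.eq_of_mul_eq_mul_right hpos ?_
    linear_combination hc
  have hd : r ∣ q ^ (d ^ 2) * ∏ i ∈ Finset.range d, (q ^ (i + 1) + 1) := hc' ▸ h.mul_right _
  rcases hr.dvd_mul.1 hd with h1 | h1
  · exact absurd (hr.dvd_of_dvd_pow h1) hrq
  · obtain ⟨i, hi, h2⟩ := (Nat.prime_iff.1 hr).dvd_finsetProd_iff _ |>.1 h1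
    exact ⟨i, Finset.mem_range.1 hi, h2⟩

end CfsgLib.MaxSub.LagrPairs
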