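import Mathlib
import Cfsg.Prelude.Def_GeometricClasses
import Cfsg.Agent.Lib.Orth.OmegaSimple

/-!
Stabilisers of totally singular subspaces, and of nonsingular lines in characteristic two, are maximal in the
derived orthogonal group.
-/

set_option autoImplicit false
open scoped Matrix

namespace CfsgLib.MaxSub.OrthStab

open CfsgLib.Geometry CfsgLib.Geometry.QuadBasic CfsgLib.Orth.Siegel

variable {F : Type*} [Field F] [Finite F] {ι : Type} [Fintype ι] [DecidableEq ι] {Q : QuadraticForm F (ι → F)}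

/-- An isometry maps a subspace into itself. -/
def Stb (W : Submodule F (ι → F)) (g : Cfsg.isometryGroup F ⇑Q) : Prop := ∀ w ∈ W, g.1.1 *ᵥ w ∈ W

omit [Finite F] in
theorem inv_mulVec (g : Cfsg.isometryGroup F ⇑Q) (z : ι → F) : (g⁻¹).1.1 *ᵥ (g.1.1 *ᵥ z) = z := by
  rw [← mulVec_mul, inv_mul_cancel]; simp

omit [Finite F] in
theorem mulVec_inv (g : Cfsg.isometryGroup F ⇑Q) (z : ι → F) : g.1.1 *ᵥ ((g⁻¹).1.1 *ᵥ z) = z := by
  rw [← mulVec_mul, mul_inv_cancel]; simp

omit [Finite F] in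
theorem B_move (g : Cfsg.isometryGroup F ⇑Q) (x y : ι → F) : B Q (g.1.1 *ᵥ x) y = B Q x ((g⁻¹).1.1 *ᵥ y) := by
  conv_lhs => rw [← mulVec_inv g y]
  exact B_gen g _ _

theorem maximal {W : Submodule F (ι → F)} (hmove : ∃ A ∈ Cfsg.Omega F ⇑Q, ¬ Stb W A)
    (h : ∀ N : Subgroup (Cfsg.isometryGroup F ⇑Q), (∀ A ∈ Cfsg.Omega F ⇑Q, Stb W A → A ∈ N) →
      N ≤ Cfsg.Omega F ⇑Q → ∀ g ∈ N, ¬ Stb W g → Cfsg.Omega F ⇑Q ≤ N) :
    Cfsg.Geo.IsMaximalIn (Cfsg.Geo.omegaGL ⇑Q) (Cfsg.Geo.subspaceStabilizer W ⊓ Cfsg.Geo.omegaGL ⇑Q) := by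
  classical
  have hmem : ∀ A : Cfsg.isometryGroup F ⇑Q, A.1 ∈ Cfsg.Geo.subspaceStabilizer W ↔ Stb W A := fun A => by
    refine ⟨fun hA w hw => (hA w).1 hw, fun hA v => ⟨hA v, fun hv => ?_⟩⟩
    let f : W → W := fun w => ⟨A.1.1 *ᵥ w.1, hA w.1 w.2⟩
    have hf : Function.Injective f := fun a b he => Subtype.ext (by
      have := congrArg (fun z : W => (A⁻¹).1.1 *ᵥ z.1) he
      simpa only [f, inv_mulVec] using this)
    obtain ⟨w, hw⟩ := (Finite.injective_iff_surjective.1 hf) ⟨_, hv⟩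
    have h1 : A.1.1 *ᵥ w.1 = A.1.1 *ᵥ v := congrArg Subtype.val hw
    have h2 := congrArg (fun z => (A⁻¹).1.1 *ᵥ z) h1
    simp only [inv_mulVec] at h2
    rw [← h2]; exact w.2
  refine ⟨lt_of_le_of_ne inf_le_right fun heq => ?_, fun M hM hMK => or_iff_not_imp_left.2 fun hne => ?_⟩
  · obtain ⟨A, hA, hAW⟩ := hmove
    exact hAW ((hmem A).1 (heq.ge ⟨A, hA, rfl⟩).1)
  · obtain ⟨g, hgM, hgH⟩ := SetLike.exists_of_lt (lt_of_le_of_ne hM (Ne.symm hne))
    obtain ⟨G, hG, rfl⟩ := hMK hgM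
    have htop := h (M.comap (Cfsg.isometryGroup F ⇑Q).subtype ⊓ Cfsg.Omega F ⇑Q)
      (fun A hA hAW => ⟨hM ⟨(hmem A).2 hAW, A, hA, rfl⟩, hA⟩) inf_le_right G ⟨hgM, hG⟩
      (fun hs => hgH ⟨(hmem G).2 hs, G, hG, rfl⟩)
    refine le_antisymm hMK ?_
    rintro _ ⟨X, hX, rfl⟩
    exact (htop hX).1

variable (hQ : (QuadraticMap.polarBilin Q).Nondegenerate) (hn : 5 ≤ Fintype.card ι)

include hQ hn in
/-- A subgroup with all long root elements contains every Siegel transformation. -/
theorem E_le {N : Subgroup (Cfsg.isometryGroup F ⇑Q)}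
    (h : ∀ u x (hu : Q u = 0) (hx : B Q u x = 0), Q x = 0 → S u x hu hx ∈ N) : E Q ≤ N := by
  rw [E, Subgroup.closure_le]
  rintro _ ⟨u, x, hu, hx, rfl⟩
  by_cases hu0 : u = 0
  · have : S u x hu hx = 1 := ext_mulVec fun z => by simp [S_apply, hu0]
    rw [this]; exact one_mem _
  obtain ⟨v, hv, huv⟩ := exists_partner hQ hu hu0
  obtain ⟨z, w, hz, hw, hzw, huz, -, huw, -⟩ := exists_pair_perp hQ hn hu hv huv
  let P : Submodule F (ι → F) :=
    { carrier := {y | B Q u y = 0 ∧ ∀ c : F, ∀ hc : B Q u (c • y) = 0, S u (c • y) hu hc ∈ N}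
      add_mem' := by
        rintro a b ⟨ha, ha'⟩ ⟨hb, hb'⟩
        refine ⟨by rw [map_add, ha, hb, add_zero], fun c hc => ?_⟩
        have h1 : B Q u (c • a) = 0 := by rw [map_smul, ha, smul_zero]
        have h2 : B Q u (c • b) = 0 := by rw [map_smul, hb, smul_zero]
        have h3 := mul_mem (ha' c h1) (hb' c h2)
        rw [S_mul hu h1 h2] at h3
        rwa [S_congr hu hc hu _ rfl (smul_add c a b)]
      zero_mem' := ⟨map_zero _, fun c hc => by
        rw [S_congr hu hc hu (map_zero _) rfl (smul_zero c), S_zero]; exact one_mem _⟩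
      smul_mem' := by
        rintro d a ⟨ha, ha'⟩
        refine ⟨by rw [map_smul, ha, smul_zero], fun c hc => ?_⟩
        rw [S_congr hu hc hu (by rw [map_smul, ha, smul_zero]) rfl (smul_smul c d a)]
        exact ha' (c * d) _ }
  have hP : x ∈ P := by
    have hs := span_singular (Q := Q) (H := LinearMap.ker (B Q u)) huz huw hz hw hzw hx
    refine Submodule.span_le.2 ?_ hs
    rintro y ⟨hy, hQy⟩
    exact ⟨hy, fun c hc => h _ _ hu hc (by rw [Q_smul, hQy, mul_zero])⟩
  have h1 := hP.2 1 (by rw [one_smul]; exact hx)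
  rwa [S_congr hu _ hu hx rfl (one_smul F x)] at h1

omit [Finite F] in
theorem S_swap {u x : ι → F} (hu : Q u = 0) (hx : B Q u x = 0) (hQx : Q x = 0) :
    S u x hu hx = S x (-u) hQx (by rw [map_neg, B_comm, hx, neg_zero]) :=
  ext_mulVec fun z => by
    simp only [S_apply, map_neg, QuadraticMap.map_neg, hu, hQx, zero_mul, add_zero, neg_smul]
    module

include hQ hn in
/-- Totally singular subspace stabilisers. -/
theorem singular_maximal {W : Submodule F (ι → F)} (hW0 : W ≠ ⊥) (hW : ∀ w ∈ W, Q w = 0)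
    (hex : ∀ U : Submodule F (ι → F), (∀ z ∈ U, Q z = 0) → Module.finrank F U = Module.finrank F W + 1 →
      2 * Module.finrank F U ≠ Fintype.card ι) :
    Cfsg.Geo.IsMaximalIn (Cfsg.Geo.omegaGL ⇑Q) (Cfsg.Geo.subspaceStabilizer W ⊓ Cfsg.Geo.omegaGL ⇑Q) := by
  classical
  haveI := Fintype.ofFinite F
  have hWW : ∀ a ∈ W, ∀ b ∈ W, B Q a b = 0 := fun a ha b hb => by
    have := Q_add (Q := Q) a b
    rw [hW _ (W.add_mem ha hb), hW a ha, hW b hb] at this
    linear_combination -this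
  obtain ⟨w₀, hw₀, hw₀0⟩ := W.exists_mem_ne_zero_of_ne_bot hW0
  refine maximal ?_ fun N hN hNO g hg hgW => ?_
  · obtain ⟨p, hp, hwp⟩ := exists_partner hQ (hW w₀ hw₀) hw₀0
    have hp0 : p ≠ 0 := fun e => by rw [e, map_zero] at hwp; exact zero_ne_one hwp
    obtain ⟨A, c, hA⟩ := CfsgLib.Orth.OmegaSimple.exists_map hQ hn (hW w₀ hw₀) hp hw₀0 hp0
    refine ⟨A.1, A.2, fun hS => ?_⟩
    have h1 := hS w₀ hw₀
    rw [hA] at h1
    have hc : c ≠ 0 := fun e => hw₀0 (by
      rw [e, zero_smul] at hA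
      rw [← inv_mulVec A.1 w₀, hA, Matrix.mulVec_zero])
    rw [W.smul_mem_iff hc] at h1
    have := hWW w₀ hw₀ p h1
    rw [hwp] at this
    exact one_ne_zero this
  rw [omega_eq_E hQ hn]
  have hEN : ∀ {a}, a ∈ E Q → a ∈ Cfsg.Omega F ⇑Q := fun ha => by rwa [omega_eq_E hQ hn]
  obtain ⟨W', hW'⟩ : ∃ W', W' = LinearMap.BilinForm.orthogonal (B Q) W := ⟨_, rfl⟩
  have hmem : ∀ {x}, x ∈ W' ↔ ∀ w ∈ W, B Q w x = 0 := fun {x} => by rw [hW']; rfl
  have hrefl : (B Q).IsRefl := fun a b hab => by rw [B_comm]; exact hab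
  have hback : ∀ x, (∀ a ∈ W', B Q a x = 0) → x ∈ W := fun x hx => by
    rw [← LinearMap.BilinForm.orthogonal_orthogonal hQ hrefl W, ← hW']; exact hx
  have hWle : W ≤ W' := fun w hw => hmem.2 fun u hu => hWW u hu w hw
  have hrootW : ∀ u ∈ W, ∀ x (hu : Q u = 0) (hx : B Q u x = 0), S u x hu hx ∈ N := fun u huW x hu hx => by
    refine hN _ (hEN (S_mem_E hu hx)) fun w hw => ?_
    rw [S_apply, hWW w hw u huW, zero_smul, add_zero]
    exact W.sub_mem hw (W.smul_mem _ huW)
  have hfix : ∀ a ∈ W', ∀ b ∈ W', ∀ (ha : Q a = 0) (hab : B Q a b = 0), S a b ha hab ∈ N := fun a haW b hbW ha hab => by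
    refine hN _ (hEN (S_mem_E ha hab)) fun w hw => ?_
    rw [S_apply, hmem.1 haW w hw, hmem.1 hbW w hw, zero_smul, add_zero, mul_zero, add_zero, zero_smul, sub_zero]
    exact hw
  let C : (ι → F) → Prop := fun u => ∀ x (hu : Q u = 0) (hx : B Q u x = 0), S u x hu hx ∈ N
  have hCW : ∀ u ∈ W, C u := hrootW
  have hCmap : ∀ h ∈ N, ∀ u, Q u = 0 → C u → C (h.1.1 *ᵥ u) := fun h hh u hu hC x hu' hx => by
    have e := B_move h u x
    rw [hx] at e
    have h1 := mul_mem (mul_mem hh (hC _ hu e.symm)) (inv_mem hh)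
    rw [S_conj] at h1
    rwa [S_congr hu' hx _ _ rfl (mulVec_inv h x).symm]
  have hCsmul : ∀ u (c : F), c ≠ 0 → Q u = 0 → C u → C (c • u) := fun u c hc hu hC x hu' hx => by
    have hx' : B Q u (c • x) = 0 := by
      rw [map_smul, LinearMap.smul_apply, smul_eq_mul, mul_eq_zero] at hx
      rw [map_smul, hx.resolve_left hc, smul_zero]
    rw [S_smul_left hu c hx hx']
    exact hC _ hu hx'
  obtain ⟨v₀, hv₀, hv₀C, hv₀W⟩ : ∃ v, Q v = 0 ∧ C v ∧ v ∉ W' := by
    by_contra hcon
    simp only [not_exists, not_and, not_not] at hcon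
    set U := Submodule.span F {z : ι → F | ∃ h ∈ N, ∃ w ∈ W, z = h.1.1 *ᵥ w} with hU
    have hUW' : U ≤ W' := by
      rw [hU, Submodule.span_le]
      rintro _ ⟨h, hh, w, hw, rfl⟩
      exact hcon _ (by rw [Q_gen]; exact hW w hw) (hCmap h hh w (hW w hw) (hCW w hw))
    have hUinv : ∀ h ∈ N, ∀ z ∈ U, h.1.1 *ᵥ z ∈ U := fun h hh z hz => by
      induction hz using Submodule.span_induction with
      | mem y hy =>
        obtain ⟨k, hk, w, hw, rfl⟩ := hy
        exact Submodule.subset_span ⟨h * k, mul_mem hh hk, w, hw, (mulVec_mul h k w).symm⟩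
      | zero => rw [Matrix.mulVec_zero]; exact U.zero_mem
      | add a b _ _ ha hb => rw [Matrix.mulVec_add]; exact U.add_mem ha hb
      | smul c a _ ha => rw [Matrix.mulVec_smul]; exact U.smul_mem c ha
    obtain ⟨w₁, hw₁, hvW⟩ : ∃ w ∈ W, g.1.1 *ᵥ w ∉ W := by
      by_contra hc; simp only [not_exists, not_and, not_not] at hc; exact hgW hc
    set v := g.1.1 *ᵥ w₁ with hv
    have hvU : v ∈ U := Submodule.subset_span ⟨g, hg, w₁, hw₁, rfl⟩
    have hvW' : v ∈ W' := hUW' hvU
    have hQv : Q v = 0 := by rw [hv, Q_gen]; exact hW w₁ hw₁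
    obtain ⟨z, hz, hvz⟩ : ∃ z ∈ W', B Q v z ≠ 0 := by
      by_contra hc
      simp only [not_exists, not_and, not_not] at hc
      exact hvW (hback v fun a ha => by rw [B_comm]; exact hc a ha)
    set z' := (B Q v z)⁻¹ • z with hz'
    set a := z' + (-Q z') • v with ha
    have hvz' : B Q v z' = 1 := by rw [hz', map_smul, smul_eq_mul, inv_mul_cancel₀ hvz]
    have hz'W : z' ∈ W' := W'.smul_mem _ hz
    clear_value z'
    have haW' : a ∈ W' := W'.add_mem hz'W (W'.smul_mem _ hvW')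
    have hQa : Q a = 0 := by
      rw [ha, Q_add, Q_smul, hQv, map_smul, B_comm z' v, hvz', smul_eq_mul]; ring
    have hvv : B Q v v = 0 := by rw [B_self, hQv, mul_zero]
    have hva : B Q v a = 1 := by rw [ha, map_add, map_smul, hvv, hvz', smul_zero, add_zero]
    have hav : B Q a v = 1 := by rw [B_comm, hva]
    have haa : B Q a a = 0 := by rw [B_self, hQa, mul_zero]
    have hK : ∀ b ∈ W', B Q a b = 0 → B Q v b = 0 → b - Q b • a ∈ U := fun b hb hab hvb => by
      have h1 := U.sub_mem (hUinv _ (hfix a haW' b hb hQa hab) v hvU) hvU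
      rw [S_apply, hvb, hva, one_smul, mul_one, zero_add] at h1
      rwa [show v + b - Q b • a - v = b - Q b • a by abel] at h1
    have hdec : ∀ y ∈ W', ∃ r ∈ W', B Q a r = 0 ∧ B Q v r = 0 ∧ y = r + B Q v y • a + B Q a y • v := fun y hy =>
      ⟨y - B Q v y • a - B Q a y • v,
        W'.sub_mem (W'.sub_mem hy (W'.smul_mem _ haW')) (W'.smul_mem _ hvW'),
        by simp only [map_sub, map_smul, smul_eq_mul, haa, hav]; ring,
        by simp only [map_sub, map_smul, smul_eq_mul, hva, hvv]; ring, by abel⟩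
    by_cases hpair : ∃ b₁ ∈ W', ∃ b₂ ∈ W', B Q a b₁ = 0 ∧ B Q v b₁ = 0 ∧ B Q a b₂ = 0 ∧ B Q v b₂ = 0 ∧ B Q b₁ b₂ ≠ 0
    · obtain ⟨b₁, hb₁, b₂, hb₂, a1, v1, a2, v2, hne⟩ := hpair
      have haU : a ∈ U := by
        have h1 := U.sub_mem (U.add_mem (hK b₁ hb₁ a1 v1) (hK b₂ hb₂ a2 v2))
          (hK (b₁ + b₂) (W'.add_mem hb₁ hb₂) (by rw [map_add, a1, a2, add_zero]) (by rw [map_add, v1, v2, add_zero]))
        have e : b₁ - Q b₁ • a + (b₂ - Q b₂ • a) - (b₁ + b₂ - Q (b₁ + b₂) • a) = B Q b₁ b₂ • a := by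
          rw [Q_add]; module
        rw [e] at h1
        exact (U.smul_mem_iff hne).1 h1
      have hW'U : W' ≤ U := fun y hy => by
        obtain ⟨r, hr, har, hvr, e⟩ := hdec y hy
        have hrU : r ∈ U := by
          have := U.add_mem (hK r hr har hvr) (U.smul_mem (Q r) haU)
          rwa [sub_add_cancel] at this
        rw [e]; exact U.add_mem (U.add_mem hrU (U.smul_mem _ haU)) (U.smul_mem _ hvU)
      refine hvW (hback v fun y hy => ?_)
      rw [hv, B_comm, B_move]
      exact hmem.1 (hUW' (hUinv _ (inv_mem hg) y (hW'U hy))) w₁ hw₁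
    · simp only [not_exists, not_and, not_not] at hpair
      have hle : W' ≤ W ⊔ Submodule.span F {v} ⊔ Submodule.span F {a} := fun y hy => by
        obtain ⟨r, hr, har, hvr, e⟩ := hdec y hy
        have hrW : r ∈ W := hback r fun x hx => by
          obtain ⟨s, hs, has, hvs, e'⟩ := hdec x hx
          rw [e', map_add, map_add, map_smul, map_smul, LinearMap.add_apply, LinearMap.add_apply, LinearMap.smul_apply,
            LinearMap.smul_apply, hpair s hs r hr has hvs har hvr, har, hvr]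
          simp
        rw [e]
        exact add_mem (add_mem (Submodule.mem_sup_left (Submodule.mem_sup_left hrW))
          (Submodule.mem_sup_right (Submodule.smul_mem _ _ (Submodule.mem_span_singleton_self a))))
          (Submodule.mem_sup_left (Submodule.mem_sup_right (Submodule.smul_mem _ _ (Submodule.mem_span_singleton_self v))))
      have hv0 : v ≠ 0 := fun e => hvW (e ▸ W.zero_mem)
      have hU1 : ∀ y ∈ W ⊔ Submodule.span F {v}, Q y = 0 := fun y hy => by
        obtain ⟨w, hw, t, ht, rfl⟩ := Submodule.mem_sup.1 hy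
        obtain ⟨c, rfl⟩ := Submodule.mem_span_singleton.1 ht
        rw [Q_add, Q_smul, hW w hw, hQv, map_smul, hmem.1 hvW' w hw]; simp
      have hd1 : Module.finrank F ↥(W ⊔ Submodule.span F {v}) = Module.finrank F W + 1 := by
        have h1 := Submodule.finrank_sup_add_finrank_inf_eq W (Submodule.span F {v})
        have h2 : W ⊓ Submodule.span F {v} = ⊥ := by
          rw [eq_bot_iff]
          rintro y ⟨hy, hy'⟩
          obtain ⟨c, rfl⟩ := Submodule.mem_span_singleton.1 hy'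
          by_cases hc : c = 0
          · simp [hc]
          · exact absurd ((W.smul_mem_iff hc).1 hy) hvW
        rw [h2, finrank_bot, finrank_span_singleton hv0] at h1
        omega
      have hperp : ∀ X : Submodule F (ι → F), Module.finrank F (LinearMap.BilinForm.orthogonal (B Q) X) + Module.finrank F X
          = Fintype.card ι := fun X => by
        have h := LinearMap.BilinForm.finrank_orthogonal hQ X
        have h' := X.finrank_le
        rw [Module.finrank_fintype_fun_eq_card] at h h'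
        show Module.finrank F (LinearMap.BilinForm.orthogonal (QuadraticMap.polarBilin Q) X) + _ = _
        rw [h]; omega
      have h3 := Submodule.finrank_mono hle
      have h4 := Submodule.finrank_add_le_finrank_add_finrank (W ⊔ Submodule.span F {v}) (Submodule.span F {a})
      have h5 : Module.finrank F (Submodule.span F {a}) ≤ 1 :=
        (finrank_span_le_card ({a} : Set (ι → F))).trans (by simp)
      have h6 := hperp W
      have h7 := hperp (W ⊔ Submodule.span F {v})
      have h8 : W ⊔ Submodule.span F {v} ≤ LinearMap.BilinForm.orthogonal (B Q) (W ⊔ Submodule.span F {v}) :=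
        fun x hx y hy => by
          show B Q y x = 0
          have := Q_add (Q := Q) y x
          rw [hU1 _ (add_mem hy hx), hU1 y hy, hU1 x hx] at this
          linear_combination -this
      have h9 := Submodule.finrank_mono h8
      rw [← hW'] at h6
      exact hex _ hU1 hd1 (by omega)
  have orbit : ∀ u ∈ W, ∀ b d, Q b = 0 → C b → B Q u b ≠ 0 → Q d = 0 → B Q u d ≠ 0 → C d := by
    intro u hu b d hb hbC hbu hd hdu
    set b' := (B Q u b)⁻¹ • b with hb'
    set d' := (B Q u d)⁻¹ • d with hd'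
    have e1 : B Q u b' = 1 := by rw [hb', map_smul, smul_eq_mul, inv_mul_cancel₀ hbu]
    have e2 : B Q u d' = 1 := by rw [hd', map_smul, smul_eq_mul, inv_mul_cancel₀ hdu]
    have qb : Q b' = 0 := by rw [hb', Q_smul, hb, mul_zero]
    have qd : Q d' = 0 := by rw [hd', Q_smul, hd, mul_zero]
    have hx : B Q u (d' - b') = 0 := by rw [map_sub, e1, e2, sub_self]
    have hsN : S u (d' - b') (hW u hu) hx ∈ N := hrootW u hu _ _ _
    have h1 := hCmap _ hsN b' qb (hCsmul b _ (inv_ne_zero hbu) hb hbC)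
    have hQb := Q_add (Q := Q) b' (d' - b')
    rw [add_sub_cancel, qb, qd] at hQb
    rw [S_apply, B_comm b' u, e1, one_smul, mul_one, show B Q b' (d' - b') + Q (d' - b') = 0 by linear_combination -hQb,
      zero_smul, sub_zero, add_sub_cancel] at h1
    have h2 := hCsmul d' _ hdu qd h1
    rwa [hd', smul_inv_smul₀ hdu] at h2
  have hout : ∀ y, Q y = 0 → y ∉ W' → C y := fun y hy hyW => by
    obtain ⟨u0, hu0, h0⟩ : ∃ u ∈ W, B Q u v₀ ≠ 0 := by
      by_contra h; simp only [not_exists, not_and, not_not] at h; exact hv₀W (hmem.2 h)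
    obtain ⟨u1, hu1, h1⟩ : ∃ u ∈ W, B Q u y ≠ 0 := by
      by_contra h; simp only [not_exists, not_and, not_not] at h; exact hyW (hmem.2 h)
    by_cases h2 : B Q u0 y = 0
    · by_cases h3 : B Q u1 v₀ = 0
      · refine orbit (u0 + u1) (W.add_mem hu0 hu1) v₀ y hv₀ hv₀C ?_ hy ?_
        · rw [map_add, LinearMap.add_apply, h3, add_zero]; exact h0
        · rw [map_add, LinearMap.add_apply, h2, zero_add]; exact h1
      · exact orbit u1 hu1 v₀ y hv₀ hv₀C h3 hy h1
    · exact orbit u0 hu0 v₀ y hv₀ hv₀C h0 hy h2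
  refine E_le hQ hn fun u x hu hx hQx => ?_
  by_cases huW : u ∈ W'
  · by_cases hxW : x ∈ W'
    · exact hfix u huW x hxW hu hx
    · rw [S_swap hu hx hQx]; exact hout x hQx hxW _ _ _
  · exact hout u hu huW x hu hx

include hQ hn in
/-- Nonsingular line stabilisers in characteristic two. -/
theorem line_maximal [CharP F 2] (hn' : 6 ≤ Fintype.card ι) {v : ι → F} (hv : Q v ≠ 0) :
    Cfsg.Geo.IsMaximalIn (Cfsg.Geo.omegaGL ⇑Q)
      (Cfsg.Geo.subspaceStabilizer (Submodule.span F {v}) ⊓ Cfsg.Geo.omegaGL ⇑Q) := by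
  classical
  haveI := Fintype.ofFinite F
  have h2 : (2 : F) = 0 := CharTwo.two_eq_zero
  have hsq : ∀ a : F, ∃ t : F, t * t = a := fun a => by
    obtain ⟨t, ht⟩ := FiniteField.isSquare_of_char_two (ringChar.eq F 2) a
    exact ⟨t, ht.symm⟩
  have hv0 : v ≠ 0 := fun e => hv (by rw [e, QuadraticMap.map_zero])
  have hvv : B Q v v = 0 := by rw [B_self, h2, zero_mul]
  have hrefl : (B Q).IsRefl := fun a b hab => by rw [B_comm]; exact hab
  have hspan : ∀ x, (∀ z, B Q v z = 0 → B Q z x = 0) → x ∈ Submodule.span F {v} := fun x hx => by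
    rw [← LinearMap.BilinForm.orthogonal_orthogonal hQ hrefl (Submodule.span F {v})]
    exact fun z hz => hx z (hz v (Submodule.mem_span_singleton_self v))
  have hstb : ∀ A : Cfsg.isometryGroup F ⇑Q, Stb (Submodule.span F {v}) A ↔ A.1.1 *ᵥ v = v := fun A => by
    refine ⟨fun h => ?_, fun h w hw => ?_⟩
    · obtain ⟨c, hc⟩ := Submodule.mem_span_singleton.1 (h v (Submodule.mem_span_singleton_self v))
      have h1 := Q_gen A v
      rw [← hc, Q_smul] at h1
      have h3 : (c - 1) * (c - 1) = 0 := by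
        have h4 : c * c = 1 := mul_right_cancel₀ hv (by rw [h1, one_mul])
        linear_combination h4 - (c - 1) * h2
      rw [← hc, sub_eq_zero.1 (mul_self_eq_zero.1 h3), one_smul]
    · obtain ⟨c, rfl⟩ := Submodule.mem_span_singleton.1 hw
      rw [Matrix.mulVec_smul, h]; exact Submodule.smul_mem _ _ (Submodule.mem_span_singleton_self v)
  -- the displacement of a vector by a long root element
  have disp : ∀ (p x w : ι → F) (hp : Q p = 0) (hpx : B Q p x = 0), Q x = 0 →
      (S p x hp hpx).1.1 *ᵥ w = w + (B Q w p • x - B Q w x • p) ∧ Q (B Q w p • x - B Q w x • p) = 0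
      ∧ B Q w (B Q w p • x - B Q w x • p) = 0 := fun p x w hp hpx hQx => by
    refine ⟨by rw [S_apply, hQx, zero_mul, add_zero]; abel, ?_, ?_⟩
    · rw [sub_eq_add_neg, ← neg_smul, Q_add, Q_smul, Q_smul, hQx, hp]
      simp only [map_smul, LinearMap.smul_apply, smul_eq_mul, B_comm x p, hpx]; ring
    · simp only [map_sub, map_smul, smul_eq_mul]; ring
  refine maximal ?_ fun N hN hNO g hg hgW => ?_
  · have h1 := (B Q v).finrank_range_add_finrank_ker
    have h3 : Module.finrank F (LinearMap.range (B Q v)) ≤ 1 :=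
      (Submodule.finrank_le _).trans (le_of_eq (Module.finrank_self F))
    rw [Module.finrank_fintype_fun_eq_card] at h1
    obtain ⟨z, hz, hz0, hQz⟩ := exists_singular_in (Q := Q) (LinearMap.ker (B Q v)) (by omega)
    have hu : Q (v + z) = Q v := by rw [Q_add, hQz, LinearMap.mem_ker.1 hz, add_zero, add_zero]
    have hu' : v + z ≠ v := fun e => hz0 (add_eq_left.1 e)
    obtain ⟨e, he, hev⟩ := exists_E_norm hQ hn hv hu
    exact ⟨e, by rw [omega_eq_E hQ hn]; exact he, fun hs => hu' (hev ▸ (hstb e).1 hs)⟩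
  have hgv : g.1.1 *ᵥ v ≠ v := fun e => hgW ((hstb g).2 e)
  rw [omega_eq_E hQ hn]
  have hfix : ∀ p x (hp : Q p = 0) (hpx : B Q p x = 0), B Q v p = 0 → B Q v x = 0 → S p x hp hpx ∈ N := fun p x hp hpx h1 h3 => by
    refine hN _ (by rw [omega_eq_E hQ hn]; exact S_mem_E hp hpx) ((hstb _).2 ?_)
    rw [S_apply, h1, h3]; simp
  -- a starting point
  set w := g.1.1 *ᵥ v with hw
  have hwspan : w ∉ Submodule.span F {v} := fun hm => hgW fun y hy => by
    obtain ⟨c, rfl⟩ := Submodule.mem_span_singleton.1 hy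
    rw [Matrix.mulVec_smul]; exact Submodule.smul_mem _ _ hm
  obtain ⟨p, hp, hvp, hwp⟩ : ∃ p, Q p = 0 ∧ B Q v p = 0 ∧ B Q w p ≠ 0 := by
    by_contra hc
    simp only [not_exists, not_and, not_not] at hc
    by_cases hβ : B Q w v = 0
    · refine hwspan (hspan w fun z hz => ?_)
      obtain ⟨l, hl⟩ := hsq (-Q z / Q v)
      have h1 := hc (z + l • v) (by
        rw [Q_add, Q_smul, hl, div_mul_cancel₀ _ hv, map_smul, B_comm z v, hz, smul_zero]; ring)
        (by rw [map_add, map_smul, hz, hvv, smul_zero, add_zero])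
      rw [map_add, map_smul, hβ, smul_zero, add_zero] at h1
      rw [B_comm]; exact h1
    · have hzero : ∀ z, B Q v z = 0 → B Q w z * B Q w z * Q v = -(Q z) * (B Q w v * B Q w v) := fun z hz => by
        obtain ⟨l, hl⟩ := hsq (-Q z / Q v)
        have hl' : l * l * Q v = -Q z := by rw [hl, div_mul_cancel₀ _ hv]
        have h1 := hc (z + l • v) (by rw [Q_add, Q_smul, hl', map_smul, B_comm z v, hz, smul_zero]; ring)
          (by rw [map_add, map_smul, hz, hvv, smul_zero, add_zero])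
        rw [map_add, map_smul, smul_eq_mul] at h1
        linear_combination (B Q w z - l * B Q w v) * Q v * h1 + B Q w v * B Q w v * hl'
      have hB : ∀ z₁ z₂, B Q v z₁ = 0 → B Q v z₂ = 0 → B Q z₁ z₂ = 0 := fun z₁ z₂ h₁ h₂ => by
        have a1 := hzero z₁ h₁
        have a2 := hzero z₂ h₂
        have a3 := hzero (z₁ + z₂) (by rw [map_add, h₁, h₂, add_zero])
        rw [map_add, Q_add] at a3
        have : B Q z₁ z₂ * (B Q w v * B Q w v) = 0 := by
          linear_combination a3 - a1 - a2 - B Q w z₁ * B Q w z₂ * Q v * h2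
        exact (mul_eq_zero.1 this).resolve_right (mul_ne_zero hβ hβ)
      have hle : LinearMap.ker (B Q v) ≤ Submodule.span F {v} := fun x hx => hspan x fun z hz => hB z x hz hx
      have h3 := Submodule.finrank_mono hle
      rw [finrank_span_singleton hv0] at h3
      have h4 := (B Q v).finrank_range_add_finrank_ker
      have h5 : Module.finrank F (LinearMap.range (B Q v)) ≤ 1 :=
        (Submodule.finrank_le _).trans (le_of_eq (Module.finrank_self F))
      rw [Module.finrank_fintype_fun_eq_card] at h4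
      omega
  obtain ⟨z, hz, hzn⟩ : ∃ z, (B Q v z = 0 ∧ B Q p z = 0) ∧ z ∉ Submodule.span F {v} ⊔ Submodule.span F {p} := by
    by_contra hc
    simp only [not_exists, not_and, not_not] at hc
    let φ : (ι → F) →ₗ[F] (F × F) := (B Q v).prod (B Q p)
    have h1 := φ.finrank_range_add_finrank_ker
    have h2' : Module.finrank F (LinearMap.range φ) ≤ 2 := (Submodule.finrank_le _).trans (le_of_eq (by simp))
    have h3 := Submodule.finrank_mono (show LinearMap.ker φ ≤ Submodule.span F {v} ⊔ Submodule.span F {p} from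
      fun z hz => hc z ⟨congrArg Prod.fst (LinearMap.mem_ker.1 hz), congrArg Prod.snd (LinearMap.mem_ker.1 hz)⟩)
    have h4 := Submodule.finrank_add_le_finrank_add_finrank (Submodule.span F {v}) (Submodule.span F {p})
    have h5 : Module.finrank F (Submodule.span F {v}) ≤ 1 := (finrank_span_le_card ({v} : Set (ι → F))).trans (by simp)
    have h6 : Module.finrank F (Submodule.span F {p}) ≤ 1 := (finrank_span_le_card ({p} : Set (ι → F))).trans (by simp)
    rw [Module.finrank_fintype_fun_eq_card] at h1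
    omega
  obtain ⟨l, hl⟩ := hsq (-Q z / Q v)
  set x := z + l • v with hx
  have hQx : Q x = 0 := by
    rw [hx, Q_add, Q_smul, hl, div_mul_cancel₀ _ hv, map_smul, B_comm z v, hz.1, smul_zero]; ring
  have hpx : B Q p x = 0 := by rw [hx, map_add, map_smul, hz.2, B_comm p v, hvp, smul_zero, add_zero]
  have hvx : B Q v x = 0 := by rw [hx, map_add, map_smul, hz.1, hvv, smul_zero, add_zero]
  obtain ⟨hd1, hd2, hd3⟩ := disp p x w hp hpx hQx
  set d := B Q w p • x - B Q w x • p with hd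
  have hd0 : d ≠ 0 := fun e => by
    refine hzn ?_
    have hxe : x = ((B Q w p)⁻¹ * B Q w x) • p := by
      rw [mul_smul, ← sub_eq_zero.1 e, inv_smul_smul₀ hwp]
    rw [show z = x - l • v by rw [hx]; abel, hxe]
    exact sub_mem (Submodule.mem_sup_right (Submodule.smul_mem _ _ (Submodule.mem_span_singleton_self p)))
      (Submodule.mem_sup_left (Submodule.smul_mem _ _ (Submodule.mem_span_singleton_self v)))
  set s₀ := (g⁻¹).1.1 *ᵥ d with hs₀
  have hs₀Q : Q s₀ = 0 := by rw [hs₀, Q_gen]; exact hd2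
  have hs₀v : B Q v s₀ = 0 := by rw [hs₀, ← B_move]; exact hd3
  have hs₀0 : s₀ ≠ 0 := fun e => hd0 (by rw [← mulVec_inv g d, ← hs₀, e, Matrix.mulVec_zero])
  have hh₀ : ∃ h ∈ N, h.1.1 *ᵥ v = v + s₀ := by
    refine ⟨g⁻¹ * (S p x hp hpx * g), mul_mem (inv_mem hg) (mul_mem (hfix p x hp hpx hvp hvx) hg), ?_⟩
    rw [mulVec_mul, mulVec_mul, ← hw, hd1, Matrix.mulVec_add, hw, inv_mulVec]
  -- transitivity on the singular vectors perpendicular to v
  have hnv : ∀ s, Q s = 0 → s ≠ 0 → ∃ z, B Q v z = 0 ∧ B Q s z ≠ 0 := fun s hs hs0 => by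
    by_contra hc
    simp only [not_exists, not_and, not_not] at hc
    obtain ⟨c, hc'⟩ := Submodule.mem_span_singleton.1 (hspan s fun z hz => by rw [B_comm]; exact hc z hz)
    rw [← hc', Q_smul] at hs
    have hc0 : c = 0 := mul_self_eq_zero.1 ((mul_eq_zero.1 hs).resolve_right hv)
    exact hs0 (by rw [← hc', hc0, zero_smul])
  have step : ∀ s r, Q s = 0 → B Q v s = 0 → Q r = 0 → B Q v r = 0 → B Q s r ≠ 0 →
      (∃ h ∈ N, h.1.1 *ᵥ v = v + s) → ∃ h ∈ N, h.1.1 *ᵥ v = v + r := by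
    rintro s r hs hsv hr hrv hsr ⟨h, hh, hhv⟩
    obtain ⟨m, hm⟩ := hsq (-(B Q s r)⁻¹ / Q v)
    set q := (B Q s r)⁻¹ • (s + r) + m • v with hq
    have hQq : Q q = 0 := by
      rw [hq, Q_add, Q_smul, Q_smul, Q_add, hs, hr, hm, div_mul_cancel₀ _ hv]
      simp only [map_smul, map_add, LinearMap.smul_apply, LinearMap.add_apply, smul_eq_mul, B_comm s v, B_comm r v, hsv, hrv]
      field_simp; ring
    have hqs : B Q q s = 1 := by
      rw [hq]
      simp only [map_smul, map_add, LinearMap.smul_apply, LinearMap.add_apply, smul_eq_mul, hsv, B_self, hs, B_comm r s, mul_zero,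
        zero_add, add_zero]
      exact inv_mul_cancel₀ hsr
    have hqr : B Q q r = 1 := by
      rw [hq]
      simp only [map_smul, map_add, LinearMap.smul_apply, LinearMap.add_apply, smul_eq_mul, hrv, B_self, hr, mul_zero,
        zero_add, add_zero]
      exact inv_mul_cancel₀ hsr
    have hvq : B Q v q = 0 := by
      rw [hq, map_add, map_smul, map_smul, map_add, hsv, hrv, hvv]; simp
    have hqx : B Q q (r - s) = 0 := by rw [map_sub, hqr, hqs, sub_self]
    refine ⟨S q (r - s) hQq hqx * h, mul_mem (hfix q _ hQq hqx hvq (by rw [map_sub, hrv, hsv, sub_self])) hh, ?_⟩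
    have hQb := Q_add (Q := Q) s (r - s)
    rw [add_sub_cancel, hs, hr] at hQb
    rw [mulVec_mul, hhv, Matrix.mulVec_add, S_apply q (r - s) hQq hqx v, S_apply q (r - s) hQq hqx s, hvq,
      B_comm s q, hqs, show B Q v (r - s) = 0 by rw [map_sub, hrv, hsv, sub_self], one_smul, mul_one,
      show B Q s (r - s) + Q (r - s) = 0 by linear_combination -hQb]
    simp
  have hall : ∀ s, Q s = 0 → B Q v s = 0 → ∃ h ∈ N, h.1.1 *ᵥ v = v + s := fun s hs hsv => by
    by_cases hs0 : s = 0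
    · exact ⟨1, one_mem _, by rw [hs0]; simp⟩
    obtain ⟨a, ha, ha'⟩ := hnv s₀ hs₀Q hs₀0
    obtain ⟨b, hb, hb'⟩ := hnv s hs hs0
    obtain ⟨z, hz, hz1, hz2⟩ : ∃ z, B Q v z = 0 ∧ B Q s₀ z ≠ 0 ∧ B Q s z ≠ 0 := by
      by_cases h1 : B Q s a = 0
      · by_cases h3 : B Q s₀ b = 0
        · exact ⟨a + b, by rw [map_add, ha, hb, add_zero], by rw [map_add, h3, add_zero]; exact ha',
            by rw [map_add, h1, zero_add]; exact hb'⟩
        · exact ⟨b, hb, h3, hb'⟩
      · exact ⟨a, ha, ha', h1⟩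
    obtain ⟨m, hm⟩ := hsq (-Q z / Q v)
    have hr : Q (z + m • v) = 0 := by
      rw [Q_add, Q_smul, hm, div_mul_cancel₀ _ hv, map_smul, B_comm z v, hz, smul_zero]; ring
    have hrv : B Q v (z + m • v) = 0 := by rw [map_add, map_smul, hz, hvv, smul_zero, add_zero]
    have e1 : B Q s₀ (z + m • v) ≠ 0 := by rw [map_add, map_smul, B_comm s₀ v, hs₀v, smul_zero, add_zero]; exact hz1
    have e2 : B Q (z + m • v) s ≠ 0 := by
      rw [B_comm, map_add, map_smul, B_comm s v, hsv, smul_zero, add_zero]; exact hz2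
    exact step _ _ hr hrv hs hsv e2 (step _ _ hs₀Q hs₀v hr hrv e1 hh₀)
  refine E_le hQ hn fun a b ha hab hQb => ?_
  obtain ⟨e1, e2, e3⟩ := disp a b v ha hab hQb
  obtain ⟨h, hh, hhv⟩ := hall _ e2 e3
  have hmemN : h⁻¹ * S a b ha hab ∈ N := by
    refine hN _ (mul_mem (inv_mem (hNO hh)) (by rw [omega_eq_E hQ hn]; exact S_mem_E ha hab)) ((hstb _).2 ?_)
    rw [mulVec_mul, e1, ← hhv, inv_mulVec]
  have := mul_mem hh hmemN
  rwa [mul_inv_cancel_left] at this

end CfsgLib.MaxSub.OrthStab
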