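import Mathlib
import Cfsg.Agent.Lib.MaxSub.OrthStab

/-!
Stabilisers of a nondegenerate subspace in the derived orthogonal group, both sides large.
-/

set_option autoImplicit false
open scoped Matrix

namespace CfsgLib.MaxSub.OrthSplit

open CfsgLib.Geometry CfsgLib.Geometry.QuadBasic CfsgLib.Orth.Siegel CfsgLib.MaxSub.OrthStab

variable {F : Type*} [Field F] [Finite F] {ι : Type} [Fintype ι] [DecidableEq ι] {Q : QuadraticForm F (ι → F)}

theorem sep_in (hQ : (QuadraticMap.polarBilin Q).Nondegenerate) {X Y : Submodule F (ι → F)}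
    (horth : ∀ x ∈ X, ∀ y ∈ Y, B Q x y = 0) (hsup : X ⊔ Y = ⊤) {S : Submodule F (ι → F)} (hS : S ≤ X)
    {z : ι → F} (hzX : z ∈ X) (hz : z ∉ S) : ∃ h ∈ X, (∀ s ∈ S, B Q s h = 0) ∧ B Q z h ≠ 0 := by
  by_contra hc
  simp only [not_exists, not_and, not_not] at hc
  have hrefl : (B Q).IsRefl := fun a b hab => by rw [B_comm]; exact hab
  refine hz ?_
  rw [← LinearMap.BilinForm.orthogonal_orthogonal hQ hrefl S]
  intro h hh
  obtain ⟨a, ha, b, hb, rfl⟩ := Submodule.mem_sup.1 (show h ∈ X ⊔ Y by rw [hsup]; trivial)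
  show B Q (a + b) z = 0
  have h1 : B Q z a = 0 := hc a ha fun s hs => by
    have := hh s hs
    change B Q s (a + b) = 0 at this
    rwa [map_add, horth s (hS hs) b hb, add_zero] at this
  rw [B_comm, map_add, h1, horth z hzX b hb, add_zero]

theorem iso_out {X : Submodule F (ι → F)} (hX : 7 ≤ Module.finrank F X) (p q : ι → F) :
    ∃ u ∈ X, Q u = 0 ∧ u ≠ 0 ∧ B Q p u = 0 ∧ B Q q u = 0 ∧ u ∉ Submodule.span F {p, q} := by
  obtain ⟨C, hC⟩ := Submodule.exists_isCompl (Submodule.span F ({p, q} : Set (ι → F)))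
  let ψ : X →ₗ[F] (F × F) := ((B Q p).comp X.subtype).prod ((B Q q).comp X.subtype)
  set K := (LinearMap.ker ψ).map X.subtype with hK
  have hKd : 5 ≤ Module.finrank F K := by
    have h1 := ψ.finrank_range_add_finrank_ker
    have h2 : Module.finrank F (LinearMap.range ψ) ≤ 2 := (Submodule.finrank_le _).trans (le_of_eq (by simp))
    rw [hK, (Submodule.equivMapOfInjective _ X.injective_subtype _).finrank_eq.symm]
    omega
  have hS : Module.finrank F (Submodule.span F ({p, q} : Set (ι → F))) ≤ 2 := by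
    classical
    exact (finrank_span_le_card ({p, q} : Set (ι → F))).trans (by
      rw [Set.toFinset_insert, Set.toFinset_singleton]; exact Finset.card_le_two)
  have hCd := Submodule.finrank_add_eq_of_isCompl hC
  have h1 := Submodule.finrank_sup_add_finrank_inf_eq K C
  have h2 := Submodule.finrank_le (K ⊔ C)
  rw [Module.finrank_fintype_fun_eq_card] at h2 hCd
  obtain ⟨u, hu, hu0, hQu⟩ := exists_singular_in (Q := Q) (K ⊓ C) (by omega)
  obtain ⟨⟨y, hy, rfl⟩, huC⟩ := hu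
  refine ⟨y.1, y.2, hQu, hu0, congrArg Prod.fst (LinearMap.mem_ker.1 hy), congrArg Prod.snd (LinearMap.mem_ker.1 hy), fun h => hu0 ?_⟩
  exact Submodule.disjoint_def.1 hC.disjoint _ h huC

theorem iso1 (hQ : (QuadraticMap.polarBilin Q).Nondegenerate) {X Y : Submodule F (ι → F)}
    (horth : ∀ x ∈ X, ∀ y ∈ Y, B Q x y = 0) (hsup : X ⊔ Y = ⊤) (hX : 7 ≤ Module.finrank F X) {p q z : ι → F}
    (hp : p ∈ X) (hq : q ∈ X) (hzX : z ∈ X) (hz : z ∉ Submodule.span F {p, q}) :
    ∃ e ∈ X, Q e = 0 ∧ B Q p e = 0 ∧ B Q q e = 0 ∧ B Q z e ≠ 0 := by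
  have hS : Submodule.span F ({p, q} : Set (ι → F)) ≤ X := Submodule.span_le.2 (by
    rintro x (rfl | rfl) <;> assumption)
  obtain ⟨u, huX, hu, hu0, hpu, hqu, hun⟩ := iso_out (Q := Q) hX p q
  obtain ⟨y, hyX, hy, huy⟩ := sep_in hQ horth hsup hS huX hun
  obtain ⟨h, hhX, hh, hzh⟩ := sep_in hQ horth hsup hS hzX hz
  let H : Submodule F (ι → F) := X ⊓ LinearMap.ker (B Q p) ⊓ LinearMap.ker (B Q q)
  have hmem : ∀ {x}, x ∈ X → (∀ s ∈ Submodule.span F ({p, q} : Set (ι → F)), B Q s x = 0) → x ∈ H := fun hx hs =>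
    ⟨⟨hx, hs p (Submodule.subset_span (Or.inl rfl))⟩, hs q (Submodule.subset_span (Or.inr rfl))⟩
  have huH : u ∈ H := ⟨⟨huX, hpu⟩, hqu⟩
  set y' := (B Q u y)⁻¹ • y with hy'
  have huy' : B Q u y' = 1 := by rw [hy', map_smul, smul_eq_mul, inv_mul_cancel₀ huy]
  have hy'H : y' ∈ H := H.smul_mem _ (hmem hyX hy)
  clear_value y'
  have hw : y' + (-Q y') • u ∈ H := H.add_mem hy'H (H.smul_mem _ huH)
  have hQw : Q (y' + (-Q y') • u) = 0 := by
    rw [Q_add, Q_smul, hu, map_smul, B_comm y' u, huy', smul_eq_mul]; ring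
  have huw : B Q u (y' + (-Q y') • u) = 1 := by
    rw [map_add, map_smul, huy', B_self, hu, mul_zero, smul_zero, add_zero]
  by_contra hc
  simp only [not_exists, not_and, not_not] at hc
  refine hzh ?_
  have hle := span_singular (Q := Q) huH hw hu hQw huw (hmem hhX hh)
  have : Submodule.span F {x | x ∈ H ∧ Q x = 0} ≤ LinearMap.ker (B Q z) := Submodule.span_le.2 (by
    rintro x ⟨hxH, hx⟩
    exact hc x hxH.1.1 hx hxH.1.2 hxH.2)
  exact this hle

variable (hQ : (QuadraticMap.polarBilin Q).Nondegenerate) (hn : 5 ≤ Fintype.card ι)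

include hQ hn in
theorem split_top {U W : Submodule F (ι → F)} (horth : ∀ u ∈ U, ∀ w ∈ W, B Q u w = 0) (hsup : U ⊔ W = ⊤)
    (hU : 7 ≤ Module.finrank F U) (hW : 7 ≤ Module.finrank F W) (N : Subgroup (Cfsg.isometryGroup F ⇑Q))
    (hNU : ∀ u ∈ U, ∀ x ∈ U, ∀ (hu : Q u = 0) (hx : B Q u x = 0), S u x hu hx ∈ N)
    (hNW : ∀ u ∈ W, ∀ x ∈ W, ∀ (hu : Q u = 0) (hx : B Q u x = 0), S u x hu hx ∈ N)
    {g : Cfsg.isometryGroup F ⇑Q} (hg : g ∈ N) {u₀ x₀ : ι → F} (hu₀U : u₀ ∈ U) (hx₀U : x₀ ∈ U) (hu₀ : Q u₀ = 0)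
    (hx₀ : Q x₀ = 0) (hux₀ : B Q u₀ x₀ = 0) (hxu : x₀ ∉ Submodule.span F {u₀})
    (hgu : g.1.1 *ᵥ u₀ ∉ U ∧ g.1.1 *ᵥ u₀ ∉ W) : E Q ≤ N := by
  classical
  have horth' : ∀ w ∈ W, ∀ u ∈ U, B Q w u = 0 := fun w hw u hu => by rw [B_comm]; exact horth u hu w hw
  have hsup' : W ⊔ U = ⊤ := by rw [sup_comm]; exact hsup
  have hdec : ∀ y, ∃ a ∈ U, ∃ b ∈ W, y = a + b := fun y => by
    obtain ⟨a, ha, b, hb, h⟩ := Submodule.mem_sup.1 (show y ∈ U ⊔ W by rw [hsup]; trivial)
    exact ⟨a, ha, b, hb, h.symm⟩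
  have hN' : ∀ {u x u' x' : ι → F} (hu : Q u = 0) (hx : B Q u x = 0) (hu' : Q u' = 0) (hx' : B Q u' x' = 0),
      S u x hu hx ∈ N → u = u' → x = x' → S u' x' hu' hx' ∈ N := fun hu hx hu' hx' h e e' => by
    rwa [← S_congr hu hx hu' hx' e e']
  have hconjS : ∀ (r : Cfsg.isometryGroup F ⇑Q), r ∈ N → ∀ u x (hu : Q u = 0) (hx : B Q u x = 0), S u x hu hx ∈ N →
      S (r.1.1 *ᵥ u) (r.1.1 *ᵥ x) (by rw [Q_gen, hu]) (by rw [B_gen, hx]) ∈ N := fun r hr u x hu hx h => by
    rw [← S_conj r hu hx]; exact mul_mem (mul_mem hr h) (inv_mem hr)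
  -- a mixed element
  obtain ⟨u, w, huU, hwW, hu0, hw0, hu, huw, hmix⟩ : ∃ u w, u ∈ U ∧ w ∈ W ∧ u ≠ 0 ∧ w ≠ 0 ∧
      ∃ (hu : Q u = 0) (huw : B Q u w = 0), S u w hu huw ∈ N := by
    have hgS : ∀ a b : F, ∀ c d : F, ∀ (hp : Q (a • g.1.1 *ᵥ u₀ + b • g.1.1 *ᵥ x₀) = 0)
        (hpq : B Q (a • g.1.1 *ᵥ u₀ + b • g.1.1 *ᵥ x₀) (c • g.1.1 *ᵥ u₀ + d • g.1.1 *ᵥ x₀) = 0),
        S _ _ hp hpq ∈ N := fun a b c d hp hpq => by
      have h1 := hNU (a • u₀ + b • x₀) (U.add_mem (U.smul_mem _ hu₀U) (U.smul_mem _ hx₀U))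
        (c • u₀ + d • x₀) (U.add_mem (U.smul_mem _ hu₀U) (U.smul_mem _ hx₀U))
        (by rw [← Q_gen g]; simpa [Matrix.mulVec_add, Matrix.mulVec_smul] using hp)
        (by rw [← B_gen g]; simpa [Matrix.mulVec_add, Matrix.mulVec_smul] using hpq)
      have h2 := hconjS g hg _ _ _ _ h1
      exact hN' _ _ hp hpq h2 (by rw [Matrix.mulVec_add, Matrix.mulVec_smul, Matrix.mulVec_smul])
        (by rw [Matrix.mulVec_add, Matrix.mulVec_smul, Matrix.mulVec_smul])
    have key : ∀ p q (p0 p1 q0 q1 : ι → F) (hp : Q p = 0) (hpq : B Q p q = 0), Q q = 0 → p = p0 + p1 → q = q0 + q1 →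
        p0 ∈ U → p1 ∈ W → q0 ∈ U → q1 ∈ W → q1 ≠ 0 → p0 ∉ Submodule.span F {q0} → S p q hp hpq ∈ N →
        ∃ u w, u ∈ U ∧ w ∈ W ∧ u ≠ 0 ∧ w ≠ 0 ∧ ∃ (hu : Q u = 0) (huw : B Q u w = 0), S u w hu huw ∈ N := by
      intro p q p0 p1 q0 q1 hp hpq hQq ep eq hp0 hp1 hq0 hq1 hq10 hnd hS
      obtain ⟨u, huU, hu, hu0, hup, huq, hun⟩ := iso_out (Q := Q) hU p0 q0
      have hp0n : p0 ∉ Submodule.span F {u, q0} := fun h => by
        obtain ⟨α, β, h⟩ := Submodule.mem_span_pair.1 h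
        by_cases hα : α = 0
        · exact hnd (Submodule.mem_span_singleton.2 ⟨β, by rw [← h, hα, zero_smul, zero_add]⟩)
        · refine hun (Submodule.mem_span_pair.2 ⟨α⁻¹, -(α⁻¹ * β), ?_⟩)
          rw [← h, smul_add, inv_smul_smul₀ hα, smul_smul]; module
      obtain ⟨x, hxU, hx, hux, hqx, hpx⟩ := iso1 hQ horth hsup hU huU hq0 hp0 hp0n
      have hBU : ∀ {a a0 a1 : ι → F}, a = a0 + a1 → a1 ∈ W → ∀ y ∈ U, B Q a y = B Q a0 y := fun e ha y hy => by
        rw [e, map_add, LinearMap.add_apply, horth' _ ha y hy, add_zero]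
      have c1 : B Q p u = 0 := by rw [hBU ep hp1 u huU]; exact hup
      have c2 : B Q q u = 0 := by rw [hBU eq hq1 u huU]; exact huq
      have c3 : B Q q x = 0 := by rw [hBU eq hq1 x hxU]; exact hqx
      have c4 : B Q p x ≠ 0 := by rw [hBU ep hp1 x hxU]; exact hpx
      have hu' : B Q u q = 0 := by rw [B_comm]; exact c2
      have hrN : S u x hu hux ∈ N := hNU u huU x hxU hu hux
      have h1 := mul_mem (hconjS _ hrN p q hp hpq hS) (inv_mem hS)
      have hw' : B Q u (B Q p x • q) = 0 := by rw [map_smul, hu', smul_zero]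
      have e1 : (S u x hu hux).1.1 *ᵥ p = p - B Q p x • u := by
        rw [S_apply, c1, hx, zero_smul, zero_mul, add_zero, add_zero]
      have e2 : (S u x hu hux).1.1 *ᵥ q = q := by
        rw [S_apply, c2, c3, hx, zero_smul, mul_zero, add_zero, add_zero, zero_smul, sub_zero]
      have hfin : S u (B Q p x • q) hu hw' ∈ N := by
        have hinv : (S (p - B Q p x • u) q (by rw [← e1, Q_gen, hp]) (by rw [map_sub, map_smul, LinearMap.sub_apply, LinearMap.smul_apply, hpq, hu', smul_zero, sub_zero]) * (S p q hp hpq)⁻¹)⁻¹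
            = S u (B Q p x • q) hu hw' := by
          rw [mul_inv_rev, inv_inv, mul_inv_eq_iff_eq_mul]
          refine ext_mulVec fun z => ?_
          rw [mulVec_mul, S_apply, S_apply, S_apply]
          simp only [map_sub, map_add, map_smul, LinearMap.sub_apply, LinearMap.add_apply, LinearMap.smul_apply,
            smul_eq_mul, hQq, Q_smul, hu, hu', c2, hpq, B_comm q p, B_self, hp, mul_zero, zero_mul, add_zero, sub_zero, B_comm u p, c1]
          module
        rw [← hinv]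
        refine inv_mem ?_
        convert h1 using 2
        exact S_congr _ _ _ _ e1.symm e2.symm
      refine ⟨u, B Q p x • q1, huU, W.smul_mem _ hq1, hu0, smul_ne_zero c4 hq10, hu, horth u huU _ (W.smul_mem _ hq1), ?_⟩
      have hq0' : B Q u (B Q p x • q0) = 0 := by rw [map_smul, B_comm u q0, huq, smul_zero]
      have h2 := mul_mem (inv_mem (hNU u huU _ (U.smul_mem (B Q p x) hq0) hu hq0')) hfin
      rw [S_inv, S_mul] at h2
      exact hN' _ _ _ _ h2 rfl (by rw [eq]; module)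
    set p := g.1.1 *ᵥ u₀ with hp
    set q := g.1.1 *ᵥ x₀ with hq
    have hpz : Q p = 0 := by rw [hp, Q_gen]; exact hu₀
    have hqz : Q q = 0 := by rw [hq, Q_gen]; exact hx₀
    have hpq : B Q p q = 0 := by rw [hp, hq, B_gen]; exact hux₀
    obtain ⟨p0, hp0, p1, hp1, ep⟩ := hdec p
    obtain ⟨q0, hq0, q1, hq1, eq⟩ := hdec q
    have hp00 : p0 ≠ 0 := fun e => hgu.2 (by rw [ep, e, zero_add]; exact hp1)
    have hp10 : p1 ≠ 0 := fun e => hgu.1 (by rw [ep, e, add_zero]; exact hp0)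
    by_cases hdep : q0 ∈ Submodule.span F {p0}
    · obtain ⟨c, hc⟩ := Submodule.mem_span_singleton.1 hdep
      have h1 : q - c • p = q1 - c • p1 := by rw [ep, eq, ← hc]; module
      have hne : q1 - c • p1 ≠ 0 := fun e => hxu (Submodule.mem_span_singleton.2 ⟨c, by
        rw [← h1, sub_eq_zero, hp, hq, ← Matrix.mulVec_smul] at e
        rw [← inv_mulVec g (c • u₀), ← e, inv_mulVec]⟩)
      have hQr : Q (q - c • p) = 0 := by
        rw [sub_eq_add_neg, ← neg_smul, Q_add, Q_smul, hqz, hpz, map_smul, B_comm, hpq, smul_zero]; ring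
      have hBr : B Q p (q - c • p) = 0 := by rw [map_sub, map_smul, hpq, B_self, hpz, mul_zero, smul_zero, sub_zero]
      refine key p (q - c • p) p0 p1 0 (q1 - c • p1) hpz hBr hQr ep (by rw [zero_add, h1]) hp0 hp1 U.zero_mem
        (W.sub_mem hq1 (W.smul_mem _ hp1)) hne ?_ ?_
      · rw [Submodule.span_zero_singleton]; exact hp00
      · refine hN' (u := (1:F) • p + (0:F) • q) (x := (-c) • p + (1:F) • q) ?_ ?_ _ _ (hgS 1 0 (-c) 1 ?_ ?_) (by module) (by module)
        all_goals first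
          | (rw [show (1:F) • p + (0:F) • q = p by module]; exact hpz)
          | (rw [show (1:F) • p + (0:F) • q = p by module, show (-c) • p + (1:F) • q = q - c • p by module]; exact hBr)
    · refine key q p q0 q1 p0 p1 hqz (by rw [B_comm]; exact hpq) hpz eq ep hq0 hq1 hp0 hp1 hp10 hdep ?_
      refine hN' (u := (0:F) • p + (1:F) • q) (x := (1:F) • p + (0:F) • q) ?_ ?_ _ _ (hgS 0 1 1 0 ?_ ?_) (by module) (by module)
      all_goals first
        | (rw [show (0:F) • p + (1:F) • q = q by module]; exact hqz)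
        | (rw [show (1:F) • p + (0:F) • q = p by module, show (0:F) • p + (1:F) • q = q by module, B_comm]; exact hpq)
  let Mx : (ι → F) → (ι → F) → Prop := fun u w => ∀ (t : F) (hu : Q u = 0) (h : B Q u (t • w) = 0), S u (t • w) hu h ∈ N
  have mstep : ∀ u ∈ U, Q u = 0 → ∀ w ∈ W, ∀ (hu : Q u = 0) (h : B Q u w = 0), S u w hu h ∈ N →
      ∀ c ∈ W, Q c = 0 → B Q w c = 0 → w ∉ Submodule.span F {c} → Mx u c := by
    intro u huU _ w hwW hu h hS c hcW hc hwc hn t hu' ht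
    obtain ⟨a, haW, ha, hca, -, hwa⟩ := iso1 hQ horth' hsup' hW hcW hcW hwW (by
      rw [show ({c, c} : Set (ι → F)) = {c} by simp]; exact hn)
    have hac : B Q a ((t / B Q w a) • c) = 0 := by rw [map_smul, B_comm a c, hca, smul_zero]
    have hr := hNW a haW _ (W.smul_mem (t / B Q w a) hcW) ha hac
    have e1 : (S a _ ha hac).1.1 *ᵥ u = u := by
      rw [S_apply, horth u huU a haW, horth u huU _ (W.smul_mem _ hcW)]; simp
    have e2 : (S a _ ha hac).1.1 *ᵥ w = w + t • c := by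
      rw [S_apply, Q_smul, hc, mul_zero, zero_mul, add_zero, map_smul, hwc, smul_zero, zero_smul, sub_zero, smul_smul,
        mul_div_cancel₀ _ hwa]
    have h1 : S u (w + t • c) hu (by rw [map_add, h, ht, add_zero]) ∈ N := hN' _ _ _ _ (hconjS _ hr u w hu h hS) e1 e2
    have h2 := mul_mem (inv_mem hS) h1
    rw [S_inv, S_mul] at h2
    exact hN' _ _ _ _ h2 rfl (by abel)
  have hmix1 : ∀ u ∈ U, Q u = 0 → ∀ b ∈ W, Q b = 0 → b ≠ 0 → Mx u b → ∀ c ∈ W, Q c = 0 → c ≠ 0 → Mx u c := by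
    intro u huU hu b hbW hb hb0 hub c hcW hc hc0
    obtain ⟨d, hdW, hd, hd0, hbd, hcd, hdn⟩ := iso_out (Q := Q) hW b c
    have hub' : B Q u b = 0 := horth u huU b hbW
    have hS := hub 1 hu (by rw [one_smul]; exact hub')
    have hud : Mx u d := mstep u huU hu b hbW hu hub' (hN' _ _ _ _ hS rfl (one_smul F b)) d hdW hd hbd (fun h => by
      obtain ⟨k, hk⟩ := Submodule.mem_span_singleton.1 h
      have hk0 : k ≠ 0 := fun e => hb0 (by rw [← hk, e, zero_smul])
      exact hdn (Submodule.mem_span_pair.2 ⟨k⁻¹, 0, by rw [zero_smul, add_zero, ← hk, inv_smul_smul₀ hk0]⟩))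
    have hud' : B Q u d = 0 := horth u huU d hdW
    exact mstep u huU hu d hdW hu hud' (hN' _ _ _ _ (hud 1 hu (by rw [one_smul]; exact hud')) rfl (one_smul F d)) c hcW hc
      (by rw [B_comm]; exact hcd) (fun h => by
        obtain ⟨k, hk⟩ := Submodule.mem_span_singleton.1 h
        exact hdn (Submodule.mem_span_pair.2 ⟨0, k, by rw [zero_smul, zero_add, hk]⟩))
  obtain ⟨b, hbW, hb, hb0, hub⟩ : ∃ b ∈ W, Q b = 0 ∧ b ≠ 0 ∧ Mx u b := by
    obtain ⟨b, hbW, hb, hb0, hwb, -, hbn⟩ := iso_out (Q := Q) hW w w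
    refine ⟨b, hbW, hb, hb0, mstep u huU hu w hwW hu _ hmix b hbW hb hwb fun h => hbn ?_⟩
    obtain ⟨k, hk⟩ := Submodule.mem_span_singleton.1 h
    have hk0 : k ≠ 0 := fun e => hw0 (by rw [← hk, e, zero_smul])
    exact Submodule.mem_span_pair.2 ⟨k⁻¹, 0, by rw [zero_smul, add_zero, ← hk, inv_smul_smul₀ hk0]⟩
  -- move the point in U
  have umove : ∀ u ∈ U, Q u = 0 → u ≠ 0 → Mx u b → ∀ u' ∈ U, Q u' = 0 → B Q u u' = 0 → u ∉ Submodule.span F {u'} → Mx u' b := by
    intro u huU hu hu0 hub u' hu'U hu' huu' hn t hu'' ht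
    obtain ⟨a, haU, ha, hca, -, hua⟩ := iso1 hQ horth hsup hU hu'U hu'U huU (by
      rw [show ({u', u'} : Set (ι → F)) = {u'} by simp]; exact hn)
    have hac : B Q a ((B Q u a)⁻¹ • u') = 0 := by rw [map_smul, B_comm a u', hca, smul_zero]
    have hr := hNU a haU _ (U.smul_mem (B Q u a)⁻¹ hu'U) ha hac
    have hub' : B Q u (t • b) = 0 := horth u huU _ (W.smul_mem _ hbW)
    have e1 : (S a _ ha hac).1.1 *ᵥ (t • b) = t • b := by
      rw [S_apply, horth' _ (W.smul_mem _ hbW) a haU, horth' _ (W.smul_mem _ hbW) _ (U.smul_mem _ hu'U)]; simp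
    have e2 : (S a _ ha hac).1.1 *ᵥ u = u + u' := by
      rw [S_apply, Q_smul, hu', mul_zero, zero_mul, add_zero, map_smul, huu', smul_zero, zero_smul, sub_zero, smul_smul,
        mul_inv_cancel₀ hua, one_smul]
    have hq : Q (u + u') = 0 := by rw [Q_add, hu, hu', huu', add_zero, add_zero]
    have hb1 : B Q (u + u') (t • b) = 0 := by rw [map_add, LinearMap.add_apply, hub', ht, add_zero]
    have h1 : S (u + u') (t • b) hq hb1 ∈ N := hN' _ _ _ _ (hconjS _ hr u _ hu hub' (hub t hu hub')) e2 e1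
    have htb : Q (t • b) = 0 := by rw [Q_smul, hb, mul_zero]
    have h2 := mul_mem (inv_mem (hub t hu hub')) h1
    rw [S_swap hu hub' htb, S_swap hq hb1 htb, S_inv, S_mul] at h2
    rw [S_swap hu'' ht htb]
    exact hN' _ _ _ _ h2 rfl (by abel)
  have hC : ∀ v ∈ U, Q v = 0 → ∀ x (hv : Q v = 0) (hx : B Q v x = 0), S v x hv hx ∈ N := by
    intro v hvU hv x hv' hx
    by_cases hv0 : v = 0
    · have : S v x hv' hx = 1 := ext_mulVec fun z => by simp [S_apply, hv0]
      rw [this]; exact one_mem _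
    have hvb : Mx v b := by
      obtain ⟨d, hdU, hd, hd0, hud, hvd, hdn⟩ := iso_out (Q := Q) hU u v
      have h1 : Mx d b := umove u huU hu hu0 hub d hdU hd hud fun h => by
        obtain ⟨k, hk⟩ := Submodule.mem_span_singleton.1 h
        have hk0 : k ≠ 0 := fun e => hu0 (by rw [← hk, e, zero_smul])
        exact hdn (Submodule.mem_span_pair.2 ⟨k⁻¹, 0, by rw [zero_smul, add_zero, ← hk, inv_smul_smul₀ hk0]⟩)
      exact umove d hdU hd hd0 h1 v hvU hv (by rw [B_comm]; exact hvd) fun h => by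
        obtain ⟨k, hk⟩ := Submodule.mem_span_singleton.1 h
        exact hdn (Submodule.mem_span_pair.2 ⟨0, k, by rw [zero_smul, zero_add, hk]⟩)
    obtain ⟨x0, hx0, x1, hx1, ex⟩ := hdec x
    have hx0' : B Q v x0 = 0 := by
      rw [ex, map_add, horth v hvU x1 hx1, add_zero] at hx; exact hx
    let P : Submodule F (ι → F) :=
      { carrier := {y | y ∈ W ∧ Mx v y}
        add_mem' := fun {a b} ha hb => ⟨W.add_mem ha.1 hb.1, fun t hv'' h => by
          have e1 : B Q v (t • a) = 0 := horth v hvU _ (W.smul_mem _ ha.1)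
          have e2 : B Q v (t • b) = 0 := horth v hvU _ (W.smul_mem _ hb.1)
          have h3 := mul_mem (ha.2 t hv'' e1) (hb.2 t hv'' e2)
          rw [S_mul] at h3
          exact hN' _ _ _ _ h3 rfl (smul_add t a b).symm⟩
        zero_mem' := ⟨W.zero_mem, fun t hv'' h => by
          rw [S_congr hv'' h hv'' (map_zero _) rfl (smul_zero t), S_zero]; exact one_mem _⟩
        smul_mem' := fun c a ha => ⟨W.smul_mem c ha.1, fun t hv'' h =>
          hN' _ _ _ _ (ha.2 (t * c) hv'' (horth v hvU _ (W.smul_mem _ ha.1))) rfl (mul_smul t c a)⟩ }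
    have hP : ∀ y ∈ W, y ∈ P := fun y hy => by
      by_contra hyP
      have hPW : P ≤ W := fun z hz => hz.1
      obtain ⟨h, hhW, hh, hyh⟩ := sep_in hQ horth' hsup' hPW hy hyP
      obtain ⟨c, hcW, hc, -, -, hhc⟩ := iso1 hQ horth' hsup' hW W.zero_mem W.zero_mem hhW (by
        rw [show ({0, 0} : Set (ι → F)) = {0} by simp, Submodule.span_zero_singleton]
        intro h0; exact hyh (by rw [(Submodule.mem_bot F).1 h0, map_zero]))
      have hc0 : c ≠ 0 := fun e => hhc (by rw [e, map_zero])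
      exact hhc (by rw [B_comm]; exact hh c ⟨hcW, hmix1 v hvU hv b hbW hb hb0 hvb c hcW hc hc0⟩)
    have h1 := mul_mem (hNU v hvU x0 hx0 hv' hx0') ((hP x1 hx1).2 1 hv' (by rw [one_smul]; exact horth v hvU x1 hx1))
    rw [S_mul] at h1
    exact hN' _ _ _ _ h1 rfl (by rw [ex, one_smul])
  -- everything
  let Cc : (ι → F) → Prop := fun v => Q v = 0 ∧ ∀ x (hv : Q v = 0) (hx : B Q v x = 0), S v x hv hx ∈ N
  have orbit : ∀ a b d, Cc a → Cc b → B Q a b ≠ 0 → Q d = 0 → B Q a d ≠ 0 → Cc d := by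
    intro a b d ha hb hab hd had
    refine ⟨hd, fun x hd' hx => ?_⟩
    set b' := (B Q a b)⁻¹ • b with hb'
    set d' := (B Q a d)⁻¹ • d with hd'def
    have e1 : B Q a b' = 1 := by rw [hb', map_smul, smul_eq_mul, inv_mul_cancel₀ hab]
    have e2 : B Q a d' = 1 := by rw [hd'def, map_smul, smul_eq_mul, inv_mul_cancel₀ had]
    have qb : Q b' = 0 := by rw [hb', Q_smul, hb.1, mul_zero]
    have qd : Q d' = 0 := by rw [hd'def, Q_smul, hd, mul_zero]
    have hax : B Q a (d' - b') = 0 := by rw [map_sub, e1, e2, sub_self]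
    have hr := ha.2 _ ha.1 hax
    have hQb := Q_add (Q := Q) b' (d' - b')
    rw [add_sub_cancel, qb, qd] at hQb
    have himg : (S a (d' - b') ha.1 hax).1.1 *ᵥ b' = d' := by
      rw [S_apply, B_comm b' a, e1, one_smul, mul_one, show B Q b' (d' - b') + Q (d' - b') = 0 by linear_combination -hQb,
        zero_smul, sub_zero, add_sub_cancel]
    obtain ⟨y, hy⟩ : ∃ y, (S a (d' - b') ha.1 hax).1.1 *ᵥ y = B Q a d • x := ⟨_, mulVec_inv _ _⟩
    have hd'x : B Q d' (B Q a d • x) = 0 := by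
      rw [hd'def, map_smul, map_smul, LinearMap.smul_apply, hx, smul_zero, smul_zero]
    have hby : B Q b' y = 0 := by rw [← B_gen (S a (d' - b') ha.1 hax), himg, hy]; exact hd'x
    have hyb : B Q b ((B Q a b)⁻¹ • y) = 0 := by
      rw [hb', map_smul, LinearMap.smul_apply] at hby
      rw [map_smul]; exact hby
    have h0 : S b' y qb hby ∈ N := by
      have h1 := hb.2 _ hb.1 hyb
      rw [← S_smul_left hb.1 (B Q a b)⁻¹ (by rw [← hb']; exact hby) hyb] at h1
      exact hN' _ _ _ _ h1 hb'.symm rfl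
    have h2 : S d' (B Q a d • x) qd hd'x ∈ N := hN' _ _ _ _ (hconjS _ hr b' y qb hby h0) himg hy
    have h3 : B Q d ((B Q a d)⁻¹ • B Q a d • x) = 0 := by rw [inv_smul_smul₀ had]; exact hx
    have h4 : S d' (B Q a d • x) qd hd'x = S d ((B Q a d)⁻¹ • B Q a d • x) hd h3 := by
      refine (S_congr qd hd'x (by rw [Q_smul, hd, mul_zero]) (by rw [← hd'def]; exact hd'x) hd'def rfl).trans ?_
      exact S_smul_left hd _ _ h3
    rw [h4] at h2
    exact hN' _ _ _ _ h2 rfl (inv_smul_smul₀ had x)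
  obtain ⟨u', hu'U, hu', -, -, huu'⟩ := iso1 hQ horth hsup hU U.zero_mem U.zero_mem huU (by
    rw [show ({0, 0} : Set (ι → F)) = {0} by simp, Submodule.span_zero_singleton, Submodule.mem_bot]; exact hu0)
  have hCu : Cc u := ⟨hu, hC u huU hu⟩
  have hCu' : Cc u' := ⟨hu', hC u' hu'U hu'⟩
  have hall : ∀ d, Q d = 0 → Cc d := fun d hd => by
    by_cases hd0 : d = 0
    · refine ⟨hd, fun x hd' hx => ?_⟩
      have : S d x hd' hx = 1 := ext_mulVec fun z => by simp [S_apply, hd0]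
      rw [this]; exact one_mem _
    obtain ⟨r, hr, -, hru, hrd⟩ := CfsgLib.Orth.OmegaSimple.exists_nonperp hQ hn hu hd hu0 hd0
    exact orbit r u d (orbit u u' r hCu hCu' huu' hr (by rw [B_comm]; exact hru)) hCu hru hd hrd
  exact E_le hQ hn fun a x ha hax _ => (hall a ha).2 x ha hax

end CfsgLib.MaxSub.OrthSplit
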