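import Mathlib
import Cfsg.Agent.Lib.MaxSub.OrthSplit
import Cfsg.Agent.Lib.Geometry.DicksonGen

/-!
Stabilisers of a nondegenerate subspace in the derived orthogonal group, the smaller side arbitrary.
-/

set_option autoImplicit false
open scoped Matrix commutatorElement

namespace CfsgLib.MaxSub.OrthSmall

open CfsgLib.Geometry CfsgLib.Geometry.QuadBasic CfsgLib.Orth.Siegel CfsgLib.MaxSub.OrthStab CfsgLib.MaxSub.OrthSplit

variable {F : Type*} [Field F] [Finite F] {ι : Type} [Fintype ι] [DecidableEq ι] {Q : QuadraticForm F (ι → F)}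

theorem exists_notin {α : Type*} [Fintype α] (s : Finset α) (h : s.card < Fintype.card α) : ∃ t, t ∉ s := by
  by_contra h'
  simp only [not_exists, not_not] at h'
  have := Finset.card_le_card (show Finset.univ ⊆ s from fun x _ => h' x)
  rw [Finset.card_univ] at this
  omega

theorem orth_stb (hQ : (QuadraticMap.polarBilin Q).Nondegenerate) {X Y : Submodule F (ι → F)}
    (horth : ∀ x ∈ X, ∀ y ∈ Y, B Q x y = 0) (hsup : X ⊔ Y = ⊤) {A : Cfsg.isometryGroup F ⇑Q} (hA : Stb X A) : Stb Y A := by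
  intro y hy
  obtain ⟨a, ha, b, hb, hab⟩ := Submodule.mem_sup.1 (show A.1.1 *ᵥ y ∈ X ⊔ Y by rw [hsup]; trivial)
  have hfin : ∀ x ∈ X, (A⁻¹).1.1 *ᵥ x ∈ X := fun x hx => by
    let f : X → X := fun w => ⟨A.1.1 *ᵥ w.1, hA w.1 w.2⟩
    have hf : Function.Injective f := fun a b he => Subtype.ext (by
      have := congrArg (fun z : X => (A⁻¹).1.1 *ᵥ z.1) he
      simpa only [f, inv_mulVec] using this)
    obtain ⟨w, hw⟩ := (Finite.injective_iff_surjective.1 hf) ⟨x, hx⟩
    rw [← show A.1.1 *ᵥ w.1 = x from congrArg Subtype.val hw, inv_mulVec]; exact w.2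
  have h0 : a = 0 := hQ.1 a fun z => by
    obtain ⟨z0, hz0, z1, hz1, rfl⟩ := Submodule.mem_sup.1 (show z ∈ X ⊔ Y by rw [hsup]; trivial)
    show B Q a (z0 + z1) = 0
    rw [map_add, horth a ha z1 hz1, add_zero]
    have h1 : B Q (a + b) z0 = 0 := by rw [hab, B_move, B_comm, horth _ (hfin z0 hz0) y hy]
    rwa [map_add, LinearMap.add_apply, B_comm b z0, horth z0 hz0 b hb, add_zero] at h1
  rw [← hab, h0, zero_add]; exact hb

theorem refl_pair_mem (hQ : (QuadraticMap.polarBilin Q).Nondegenerate) {v u : ι → F} (hv : Q v ≠ 0) (huv : Q u = Q v) :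
    Reflections.R Q v hv * Reflections.R Q u (huv ▸ hv) ∈ Cfsg.Omega F ⇑Q := by
  haveI := Fintype.ofFinite F
  obtain ⟨g, hg⟩ := CfsgLib.Geometry.DicksonGen.exists_map (Q := Q) hQ hv huv
  have hinv : (Reflections.R Q v hv)⁻¹ = Reflections.R Q v hv := inv_eq_of_mul_eq_one_right (ext_mulVec fun x => by
    rw [mulVec_mul, Reflections.R_apply, Reflections.R_apply]
    simp only [← B_apply, map_sub, map_smul, B_self, smul_eq_mul]
    rw [show (Q v)⁻¹ * (B Q v x - (Q v)⁻¹ * B Q v x * (2 * Q v)) = -((Q v)⁻¹ * B Q v x) by field_simp; ring]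
    simp)
  have hc : Reflections.R Q u (huv ▸ hv) = g * (Reflections.R Q v hv)⁻¹ * g⁻¹ := ext_mulVec fun x => by
    rw [hinv, mulVec_mul, mulVec_mul, Reflections.R_apply, Reflections.R_apply, Matrix.mulVec_sub, Matrix.mulVec_smul, hg,
      mulVec_inv]
    simp only [← B_apply]
    rw [← B_gen g v ((g⁻¹).1.1 *ᵥ x), hg, mulVec_inv, huv]
  rw [hc, show Reflections.R Q v hv * (g * (Reflections.R Q v hv)⁻¹ * g⁻¹) = ⁅Reflections.R Q v hv, g⁆ by
    rw [commutatorElement_def]; group]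
  exact Subgroup.commutator_mem_commutator (Subgroup.mem_top _) (Subgroup.mem_top _)

variable (hQ : (QuadraticMap.polarBilin Q).Nondegenerate) (hn : 5 ≤ Fintype.card ι)

include hQ hn in
theorem small_top {U W : Submodule F (ι → F)} (horth : ∀ u ∈ U, ∀ w ∈ W, B Q u w = 0) (hsup : U ⊔ W = ⊤)
    (hU : 7 ≤ Module.finrank F U) (hlt : Module.finrank F W < Module.finrank F U)
    (hex : ¬ (Nat.card F ≤ 3 ∧ Module.finrank F W = 2 ∧ ∃ y ∈ W, y ≠ 0 ∧ Q y = 0))
    (N : Subgroup (Cfsg.isometryGroup F ⇑Q))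
    (hN : ∀ A ∈ Cfsg.Omega F ⇑Q, Stb U A → Stb W A → A ∈ N)
    {g : Cfsg.isometryGroup F ⇑Q} (hg : g ∈ N) (hgU : ¬ Stb U g) : E Q ≤ N := by
  classical
  have horth' : ∀ w ∈ W, ∀ u ∈ U, B Q w u = 0 := fun w hw u hu => by rw [B_comm]; exact horth u hu w hw
  have hsup' : W ⊔ U = ⊤ := by rw [sup_comm]; exact hsup
  have hdec : ∀ y, ∃ a ∈ U, ∃ b ∈ W, y = a + b := fun y => by
    obtain ⟨a, ha, b, hb, h⟩ := Submodule.mem_sup.1 (show y ∈ U ⊔ W by rw [hsup]; trivial)
    exact ⟨a, ha, b, hb, h.symm⟩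
  have hdisj : ∀ x ∈ U, x ∈ W → x = 0 := fun x hx hx' => hQ.1 x fun y => by
    obtain ⟨a, ha, b, hb, rfl⟩ := hdec y
    show B Q x (a + b) = 0
    rw [map_add, horth' x hx' a ha, horth x hx b hb, add_zero]
  have hN' : ∀ {u x u' x' : ι → F} (hu : Q u = 0) (hx : B Q u x = 0) (hu' : Q u' = 0) (hx' : B Q u' x' = 0),
      S u x hu hx ∈ N → u = u' → x = x' → S u' x' hu' hx' ∈ N := fun hu hx hu' hx' h e e' => by
    rwa [← S_congr hu hx hu' hx' e e']
  have hconjS : ∀ (r : Cfsg.isometryGroup F ⇑Q), r ∈ N → ∀ u x (hu : Q u = 0) (hx : B Q u x = 0), S u x hu hx ∈ N →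
      S (r.1.1 *ᵥ u) (r.1.1 *ᵥ x) (by rw [Q_gen, hu]) (by rw [B_gen, hx]) ∈ N := fun r hr u x hu hx h => by
    rw [← S_conj r hu hx]; exact mul_mem (mul_mem hr h) (inv_mem hr)
  have hEΩ : E Q ≤ Cfsg.Omega F ⇑Q := (omega_eq_E hQ hn).ge
  have hstb : ∀ {X Y : Submodule F (ι → F)}, (∀ x ∈ X, ∀ y ∈ Y, B Q x y = 0) → ∀ u ∈ X, ∀ x ∈ X, ∀ (hu : Q u = 0) (hx : B Q u x = 0),
      Stb X (S u x hu hx) ∧ Stb Y (S u x hu hx) := fun {X Y} ho u huX x hxX hu hx => by
    refine ⟨fun z hz => ?_, fun z hz => ?_⟩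
    · rw [S_apply]; exact X.sub_mem (X.add_mem hz (X.smul_mem _ hxX)) (X.smul_mem _ huX)
    · rw [S_apply, B_comm z u, ho u huX z hz, B_comm z x, ho x hxX z hz]; simpa using hz
  have hNU : ∀ u ∈ U, ∀ x ∈ U, ∀ (hu : Q u = 0) (hx : B Q u x = 0), S u x hu hx ∈ N := fun u hu' x hx' hu hx =>
    hN _ (hEΩ (S_mem_E hu hx)) (hstb horth u hu' x hx' hu hx).1 (hstb horth u hu' x hx' hu hx).2
  have hne0 : ∀ z, z ≠ 0 → g.1.1 *ᵥ z ≠ 0 := fun z hz e => hz (by rw [← inv_mulVec g z, e, Matrix.mulVec_zero])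
  obtain ⟨u₀, hu₀U, hu₀, hgu⟩ : ∃ u ∈ U, Q u = 0 ∧ (g.1.1 *ᵥ u ∉ U ∧ g.1.1 *ᵥ u ∉ W) := by
    by_contra hc
    simp only [not_exists, not_and, not_not] at hc
    have side : ∀ z ∈ U, Q z = 0 → g.1.1 *ᵥ z ∈ U ∨ g.1.1 *ᵥ z ∈ W := fun z hz hQz =>
      or_iff_not_imp_left.2 fun h => hc z hz hQz h
    have pair : ∀ a ∈ U, ∀ b ∈ U, Q a = 0 → Q b = 0 → B Q a b = 0 → g.1.1 *ᵥ a ∈ U → g.1.1 *ᵥ b ∈ W → a = 0 ∨ b = 0 := by
      intro a ha b hb hQa hQb hab h1 h2
      by_contra h
      rw [not_or] at h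
      rcases side _ (U.add_mem ha hb) (by rw [Q_add, hQa, hQb, hab, add_zero, add_zero]) with h3 | h3 <;>
        rw [Matrix.mulVec_add] at h3
      · exact hne0 b h.2 (hdisj _ ((U.add_mem_iff_right h1).1 h3) h2)
      · exact hne0 a h.1 (hdisj _ h1 ((W.add_mem_iff_left h2).1 h3))
    obtain ⟨u, huU, hu, hu0, -, -, -⟩ := iso_out (Q := Q) hU (0 : ι → F) 0
    obtain ⟨y, hyU, hy, -, -, huy⟩ := iso1 hQ horth hsup hU U.zero_mem U.zero_mem huU (by
      rw [show ({0, 0} : Set (ι → F)) = {0} by simp, Submodule.span_zero_singleton, Submodule.mem_bot]; exact hu0)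
    have hy' : B Q u ((B Q u y)⁻¹ • y) = 1 := by rw [map_smul, smul_eq_mul, inv_mul_cancel₀ huy]
    have hfill : ∀ (Y : Submodule F (ι → F)), (∀ z ∈ U, Q z = 0 → g.1.1 *ᵥ z ∈ Y) → ∀ z ∈ U, g.1.1 *ᵥ z ∈ Y := fun Y hY z hz => by
      have hle : Submodule.span F {x | x ∈ U ∧ Q x = 0} ≤ Y.comap (Matrix.mulVecLin g.1.1) :=
        Submodule.span_le.2 fun x hx => hY x hx.1 hx.2
      exact hle (span_singular (Q := Q) (H := U) huU (U.smul_mem (B Q u y)⁻¹ hyU) hu (by rw [Q_smul, hy, mul_zero]) hy' hz)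
    by_cases hW' : ∀ z ∈ U, Q z = 0 → g.1.1 *ᵥ z ∈ W
    · have hle := hfill W hW'
      let f : U →ₗ[F] W := ((Matrix.mulVecLin g.1.1).comp U.subtype).codRestrict W fun x => hle x.1 x.2
      have := LinearMap.finrank_le_finrank_of_injective (f := f) fun a b h => Subtype.ext (by
        have h' : g.1.1 *ᵥ a.1 = g.1.1 *ᵥ b.1 := congrArg Subtype.val h
        rw [← inv_mulVec g a.1, h', inv_mulVec])
      omega
    simp only [not_forall] at hW'
    obtain ⟨a, ha, hQa, haW⟩ := hW'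
    have haU : g.1.1 *ᵥ a ∈ U := (side a ha hQa).resolve_right haW
    have ha0 : a ≠ 0 := fun e => haW (by rw [e, Matrix.mulVec_zero]; exact W.zero_mem)
    refine hgU (hfill U fun z hz hQz => ?_)
    by_cases hz0 : z = 0
    · rw [hz0, Matrix.mulVec_zero]; exact U.zero_mem
    refine (side z hz hQz).resolve_right fun hzW => ?_
    obtain ⟨d, hdU, hd, hd0, had, hzd, -⟩ := iso_out (Q := Q) hU a z
    rcases side d hdU hd with h | h
    · exact ((pair d hdU z hz hd hQz (by rw [B_comm]; exact hzd) h hzW).elim hd0 hz0)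
    · exact ((pair a ha d hdU hQa hd had haU h).elim ha0 hd0)
  obtain ⟨x₀, hx₀U, hx₀, -, hux₀, -, hxu'⟩ := iso_out (Q := Q) hU u₀ u₀
  have hxu : x₀ ∉ Submodule.span F {u₀} := by simpa using hxu'
  -- a mixed element
  obtain ⟨u, w, huU, hwW, hu0, hw0, hu, huw, hmix⟩ : ∃ u w, u ∈ U ∧ w ∈ W ∧ u ≠ 0 ∧ w ≠ 0 ∧
      ∃ (hu : Q u = 0) (huw : B Q u w = 0), S u w hu huw ∈ N := by
    have hgS : ∀ a b : F, ∀ c d : F, ∀ (hp : Q (a • g.1.1 *ᵥ u₀ + b • g.1.1 *ᵥ x₀) = 0)
        (hpq : B Q (a • g.1.1 *ᵥ u₀ + b • g.1.1 *ᵥ x₀) (c • g.1.1 *ᵥ u₀ + d • g.1.1 *ᵥ x₀) = 0),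
        S _ _ hp hpq ∈ N := fun a b c d hp hpq => by
      have h1 := hNU (a • u₀ + b • x₀) (U.add_mem (U.smul_mem _ hu₀U) (U.smul_mem _ hx₀U))
        (c • u₀ + d • x₀) (U.add_mem (U.smul_mem _ hu₀U) (U.smul_mem _ hx₀U))
        (by rw [← Q_gen g]; simpa [Matrix.mulVec_add, Matrix.mulVec_smul] using hp)
        (by rw [← B_gen g]; simpa [Matrix.mulVec_add, Matrix.mulVec_smul] using hpq)
      have h2 := hconjS g hg _ _ _ _ h1
      exact hN' _ _ hp hpq h2 (by rw [Matrix.mulVec_add, Matrix.mulVec_smul, Matrix.mulVec_smul])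
        (by rw [Matrix.mulVec_add, Matrix.mulVec_smul, Matrix.mulVec_smul])
    have key : ∀ p q (p0 p1 q0 q1 : ι → F) (hp : Q p = 0) (hpq : B Q p q = 0), Q q = 0 → p = p0 + p1 → q = q0 + q1 →
        p0 ∈ U → p1 ∈ W → q0 ∈ U → q1 ∈ W → q1 ≠ 0 → p0 ∉ Submodule.span F {q0} → S p q hp hpq ∈ N →
        ∃ u w, u ∈ U ∧ w ∈ W ∧ u ≠ 0 ∧ w ≠ 0 ∧ ∃ (hu : Q u = 0) (huw : B Q u w = 0), S u w hu huw ∈ N := by
      intro p q p0 p1 q0 q1 hp hpq hQq ep eq hp0 hp1 hq0 hq1 hq10 hnd hS
      obtain ⟨u, huU, hu, hu0, hup, huq, hun⟩ := iso_out (Q := Q) hU p0 q0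
      have hp0n : p0 ∉ Submodule.span F {u, q0} := fun h => by
        obtain ⟨α, β, h⟩ := Submodule.mem_span_pair.1 h
        by_cases hα : α = 0
        · exact hnd (Submodule.mem_span_singleton.2 ⟨β, by rw [← h, hα, zero_smul, zero_add]⟩)
        · refine hun (Submodule.mem_span_pair.2 ⟨α⁻¹, -(α⁻¹ * β), ?_⟩)
          rw [← h, smul_add, inv_smul_smul₀ hα, smul_smul]; module
      obtain ⟨x, hxU, hx, hux, hqx, hpx⟩ := iso1 hQ horth hsup hU huU hq0 hp0 hp0n
      have hBU : ∀ {a a0 a1 : ι → F}, a = a0 + a1 → a1 ∈ W → ∀ y ∈ U, B Q a y = B Q a0 y := fun e ha y hy => by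
        rw [e, map_add, LinearMap.add_apply, horth' _ ha y hy, add_zero]
      have c1 : B Q p u = 0 := by rw [hBU ep hp1 u huU]; exact hup
      have c2 : B Q q u = 0 := by rw [hBU eq hq1 u huU]; exact huq
      have c3 : B Q q x = 0 := by rw [hBU eq hq1 x hxU]; exact hqx
      have c4 : B Q p x ≠ 0 := by rw [hBU ep hp1 x hxU]; exact hpx
      have hu' : B Q u q = 0 := by rw [B_comm]; exact c2
      have hrN : S u x hu hux ∈ N := hNU u huU x hxU hu hux
      have h1 := mul_mem (hconjS _ hrN p q hp hpq hS) (inv_mem hS)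
      have hw' : B Q u (B Q p x • q) = 0 := by rw [map_smul, hu', smul_zero]
      have e1 : (S u x hu hux).1.1 *ᵥ p = p - B Q p x • u := by
        rw [S_apply, c1, hx, zero_smul, zero_mul, add_zero, add_zero]
      have e2 : (S u x hu hux).1.1 *ᵥ q = q := by
        rw [S_apply, c2, c3, hx, zero_smul, mul_zero, add_zero, add_zero, zero_smul, sub_zero]
      have hfin : S u (B Q p x • q) hu hw' ∈ N := by
        have hinv : (S (p - B Q p x • u) q (by rw [← e1, Q_gen, hp]) (by rw [map_sub, map_smul, LinearMap.sub_apply, LinearMap.smul_apply, hpq, hu', smul_zero, sub_zero]) * (S p q hp hpq)⁻¹)⁻¹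
            = S u (B Q p x • q) hu hw' := by
          rw [mul_inv_rev, inv_inv, mul_inv_eq_iff_eq_mul]
          refine ext_mulVec fun z => ?_
          rw [mulVec_mul, S_apply, S_apply, S_apply]
          simp only [map_sub, map_add, map_smul, LinearMap.sub_apply, LinearMap.add_apply, LinearMap.smul_apply,
            smul_eq_mul, hQq, Q_smul, hu, hu', c2, hpq, B_comm q p, B_self, hp, mul_zero, zero_mul, add_zero, sub_zero, B_comm u p, c1]
          module
        rw [← hinv]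
        refine inv_mem ?_
        convert h1 using 2
        exact S_congr _ _ _ _ e1.symm e2.symm
      refine ⟨u, B Q p x • q1, huU, W.smul_mem _ hq1, hu0, smul_ne_zero c4 hq10, hu, horth u huU _ (W.smul_mem _ hq1), ?_⟩
      have hq0' : B Q u (B Q p x • q0) = 0 := by rw [map_smul, B_comm u q0, huq, smul_zero]
      have h2 := mul_mem (inv_mem (hNU u huU _ (U.smul_mem (B Q p x) hq0) hu hq0')) hfin
      rw [S_inv, S_mul] at h2
      exact hN' _ _ _ _ h2 rfl (by rw [eq]; module)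
    set p := g.1.1 *ᵥ u₀ with hp
    set q := g.1.1 *ᵥ x₀ with hq
    have hpz : Q p = 0 := by rw [hp, Q_gen]; exact hu₀
    have hqz : Q q = 0 := by rw [hq, Q_gen]; exact hx₀
    have hpq : B Q p q = 0 := by rw [hp, hq, B_gen]; exact hux₀
    obtain ⟨p0, hp0, p1, hp1, ep⟩ := hdec p
    obtain ⟨q0, hq0, q1, hq1, eq⟩ := hdec q
    have hp00 : p0 ≠ 0 := fun e => hgu.2 (by rw [ep, e, zero_add]; exact hp1)
    have hp10 : p1 ≠ 0 := fun e => hgu.1 (by rw [ep, e, add_zero]; exact hp0)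
    by_cases hdep : q0 ∈ Submodule.span F {p0}
    · obtain ⟨c, hc⟩ := Submodule.mem_span_singleton.1 hdep
      have h1 : q - c • p = q1 - c • p1 := by rw [ep, eq, ← hc]; module
      have hne : q1 - c • p1 ≠ 0 := fun e => hxu (Submodule.mem_span_singleton.2 ⟨c, by
        rw [← h1, sub_eq_zero, hp, hq, ← Matrix.mulVec_smul] at e
        rw [← inv_mulVec g (c • u₀), ← e, inv_mulVec]⟩)
      have hQr : Q (q - c • p) = 0 := by
        rw [sub_eq_add_neg, ← neg_smul, Q_add, Q_smul, hqz, hpz, map_smul, B_comm, hpq, smul_zero]; ring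
      have hBr : B Q p (q - c • p) = 0 := by rw [map_sub, map_smul, hpq, B_self, hpz, mul_zero, smul_zero, sub_zero]
      refine key p (q - c • p) p0 p1 0 (q1 - c • p1) hpz hBr hQr ep (by rw [zero_add, h1]) hp0 hp1 U.zero_mem
        (W.sub_mem hq1 (W.smul_mem _ hp1)) hne ?_ ?_
      · rw [Submodule.span_zero_singleton]; exact hp00
      · refine hN' (u := (1:F) • p + (0:F) • q) (x := (-c) • p + (1:F) • q) ?_ ?_ _ _ (hgS 1 0 (-c) 1 ?_ ?_) (by module) (by module)
        all_goals first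
          | (rw [show (1:F) • p + (0:F) • q = p by module]; exact hpz)
          | (rw [show (1:F) • p + (0:F) • q = p by module, show (-c) • p + (1:F) • q = q - c • p by module]; exact hBr)
    · refine key q p q0 q1 p0 p1 hqz (by rw [B_comm]; exact hpq) hpz eq ep hq0 hq1 hp0 hp1 hp10 hdep ?_
      refine hN' (u := (0:F) • p + (1:F) • q) (x := (1:F) • p + (0:F) • q) ?_ ?_ _ _ (hgS 0 1 1 0 ?_ ?_) (by module) (by module)
      all_goals first
        | (rw [show (0:F) • p + (1:F) • q = q by module]; exact hqz)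
        | (rw [show (1:F) • p + (0:F) • q = p by module, show (0:F) • p + (1:F) • q = q by module, B_comm]; exact hpq)
  let P : Submodule F (ι → F) :=
    { carrier := {w | w ∈ W ∧ ∀ d ∈ U, ∀ (hd : Q d = 0) (h : B Q d w = 0), S d w hd h ∈ N}
      add_mem' := fun {a b} ha hb => ⟨W.add_mem ha.1 hb.1, fun d hdU hd h => by
        have e1 := horth d hdU a ha.1
        have e2 := horth d hdU b hb.1
        rw [← S_mul hd e1 e2]; exact mul_mem (ha.2 d hdU hd e1) (hb.2 d hdU hd e2)⟩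
      zero_mem' := ⟨W.zero_mem, fun d _ hd h => by rw [S_zero]; exact one_mem _⟩
      smul_mem' := fun c a ha => ⟨W.smul_mem c ha.1, fun d hdU hd h => by
        have e : B Q (c • d) a = 0 := horth _ (U.smul_mem c hdU) a ha.1
        rw [← S_smul_left hd c e h]; exact ha.2 _ (U.smul_mem c hdU) _ e⟩ }
  have hwP : w ∈ P := by
    refine ⟨hwW, fun d hdU hd h => ?_⟩
    have umove : ∀ u ∈ U, ∀ (hu : Q u = 0) (h : B Q u w = 0), S u w hu h ∈ N → ∀ d ∈ U, ∀ (hd : Q d = 0) (h' : B Q d w = 0),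
        B Q u d = 0 → u ∉ Submodule.span F {d - u} → S d w hd h' ∈ N := by
      intro u huU hu h hS d hdU hd h' hud hn'
      have hu'U : d - u ∈ U := U.sub_mem hdU huU
      have hu'z : Q (d - u) = 0 := by
        rw [sub_eq_add_neg, Q_add, QuadraticMap.map_neg, hd, hu, map_neg, B_comm, hud, neg_zero, add_zero, add_zero]
      have huu' : B Q u (d - u) = 0 := by rw [map_sub, hud, B_self, hu, mul_zero, sub_zero]
      obtain ⟨a, haU, ha, hca, -, hua⟩ := iso1 hQ horth hsup hU hu'U hu'U huU (by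
        rw [show ({d - u, d - u} : Set (ι → F)) = {d - u} by simp]; exact hn')
      have hac : B Q a ((B Q u a)⁻¹ • (d - u)) = 0 := by rw [map_smul, B_comm a (d - u), hca, smul_zero]
      have hr := hNU a haU _ (U.smul_mem (B Q u a)⁻¹ hu'U) ha hac
      have e1 : (S a _ ha hac).1.1 *ᵥ w = w := by
        rw [S_apply, horth' _ hwW a haU, horth' _ hwW _ (U.smul_mem _ hu'U)]; simp
      have e2 : (S a _ ha hac).1.1 *ᵥ u = d := by
        rw [S_apply, Q_smul, hu'z, mul_zero, zero_mul, add_zero, map_smul, huu', smul_zero, zero_smul, sub_zero, smul_smul,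
          mul_inv_cancel₀ hua, one_smul]; abel
      exact hN' _ _ _ _ (hconjS _ hr u w hu h hS) e2 e1
    by_cases hd0 : d = 0
    · have : S d w hd h = 1 := ext_mulVec fun z => by simp [S_apply, hd0]
      rw [this]; exact one_mem _
    obtain ⟨d', hd'U, hd', hd'0, hud', hdd', hn'⟩ := iso_out (Q := Q) hU u d
    have h1 : S d' w hd' (horth d' hd'U w hwW) ∈ N := umove u huU hu huw hmix d' hd'U hd' _ hud' fun hm => by
      obtain ⟨k, hk⟩ := Submodule.mem_span_singleton.1 hm
      have hk0 : k ≠ 0 := fun e => hu0 (by rw [← hk, e, zero_smul])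
      exact hn' (Submodule.mem_span_pair.2 ⟨k⁻¹ + 1, 0, by
        rw [zero_smul, add_zero, add_smul, one_smul]; nth_rewrite 1 [← hk]; rw [inv_smul_smul₀ hk0]; abel⟩)
    refine umove d' hd'U hd' _ h1 d hdU hd h (by rw [B_comm]; exact hdd') fun hm => ?_
    obtain ⟨k, hk⟩ := Submodule.mem_span_singleton.1 hm
    by_cases hk1 : 1 + k = 0
    · have hk' : k = -1 := by linear_combination hk1
      rw [hk', neg_one_smul, neg_sub, sub_eq_self] at hk
      exact hd0 hk
    · exact hn' (Submodule.mem_span_pair.2 ⟨0, (1 + k)⁻¹ * k, by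
        rw [zero_smul, zero_add, mul_smul, show k • d = (1 + k) • d' by
          rw [add_smul, one_smul]; nth_rewrite 1 [← hk]; rw [smul_sub]; abel, inv_smul_smul₀ hk1]⟩)
  -- the subspace is invariant, hence everything
  have hinv : ∀ r ∈ N, Stb U r → Stb W r → ∀ p ∈ P, r.1.1 *ᵥ p ∈ P := fun r hr hrU hrW p hp => by
    refine ⟨hrW p hp.1, fun d hdU hd h => ?_⟩
    let f : U → U := fun z => ⟨r.1.1 *ᵥ z.1, hrU z.1 z.2⟩
    have hf : Function.Injective f := fun a b he => Subtype.ext (by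
      have := congrArg (fun z : U => (r⁻¹).1.1 *ᵥ z.1) he
      simpa only [f, inv_mulVec] using this)
    obtain ⟨z, hz⟩ := (Finite.injective_iff_surjective.1 hf) ⟨d, hdU⟩
    have hz' : r.1.1 *ᵥ z.1 = d := congrArg Subtype.val hz
    have hz0 : Q z.1 = 0 := by rw [← Q_gen r, hz', hd]
    exact hN' _ _ _ _ (hconjS r hr _ _ hz0 (horth z.1 z.2 p hp.1) (hp.2 z.1 z.2 hz0 _)) hz' rfl
  have hPW : ∀ y ∈ W, y ∈ P := by
    intro y0 hy0
    by_contra hy0P
    obtain ⟨u1, hu1U, hu1, hu10, -, -, -⟩ := iso_out (Q := Q) hU (0 : ι → F) 0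
    obtain ⟨e1, he1U, he1, -, -, hue⟩ := iso1 hQ horth hsup hU U.zero_mem U.zero_mem hu1U (by
      rw [show ({0, 0} : Set (ι → F)) = {0} by simp, Submodule.span_zero_singleton, Submodule.mem_bot]; exact hu10)
    have hrefl : ∀ v ∈ W, Q v ≠ 0 → ∀ p ∈ P, B Q v p ≠ 0 → v ∈ P := by
      intro v hvW hv p hp hvp
      set x := u1 + (Q v / B Q u1 e1) • e1 with hx
      have hxU : x ∈ U := U.add_mem hu1U (U.smul_mem _ he1U)
      have hQx : Q x = Q v := by
        rw [hx, Q_add, Q_smul, hu1, he1, map_smul, smul_eq_mul, div_mul_cancel₀ _ hue]; ring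
      have hxne : Q x ≠ 0 := hQx ▸ hv
      set r := Reflections.R Q v hv * Reflections.R Q x hxne with hr
      have hrU : Stb U r := fun z hz => by
        rw [hr, mulVec_mul, Reflections.R_apply x]
        rw [Reflections.R_fix v hv (x := z - _) (by
          show B Q v _ = 0
          exact horth' v hvW _ (U.sub_mem hz (U.smul_mem _ hxU)))]
        exact U.sub_mem hz (U.smul_mem _ hxU)
      have hrW : Stb W r := fun z hz => by
        rw [hr, mulVec_mul, Reflections.R_fix x hxne (x := z) (horth x hxU z hz), Reflections.R_apply]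
        exact W.sub_mem hz (W.smul_mem _ hvW)
      have h1 := hinv r (hN r (refl_pair_mem hQ hv hQx) hrU hrW) hrU hrW p hp
      rw [hr, mulVec_mul, Reflections.R_fix x hxne (x := p) (horth x hxU p hp.1), Reflections.R_apply] at h1
      have h2 := P.sub_mem hp h1
      rw [sub_sub_cancel] at h2
      exact (Submodule.smul_mem_iff P (mul_ne_zero (inv_ne_zero hv) hvp)).1 h2
    -- a vector outside both
    obtain ⟨y, hyW, hyP, p, hp, hyp⟩ : ∃ y ∈ W, y ∉ P ∧ ∃ p ∈ P, B Q y p ≠ 0 := by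
      obtain ⟨z, hz⟩ : ∃ z, B Q w z ≠ 0 := by
        by_contra h
        simp only [not_exists, not_not] at h
        exact hw0 (hQ.1 w h)
      obtain ⟨z0, hz0, z1, hz1, rfl⟩ := hdec z
      rw [map_add, horth' w hwW z0 hz0, zero_add] at hz
      by_cases hzP : z1 ∈ P
      · by_cases hy0w : B Q y0 w = 0
        · refine ⟨y0 + z1, W.add_mem hy0 hz1, fun h => hy0P ((P.add_mem_iff_left hzP).1 h), w, hwP, ?_⟩
          rw [map_add, LinearMap.add_apply, hy0w, zero_add, B_comm]; exact hz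
        · exact ⟨y0, hy0, hy0P, w, hwP, hy0w⟩
      · exact ⟨z1, hz1, hzP, w, hwP, by rw [B_comm]; exact hz⟩
    have hQy : Q y = 0 := by
      by_contra h; exact hyP (hrefl y hyW h p hp hyp)
    -- singular vectors outside force a hyperbolic plane
    have hperp : ∀ c ∈ P, B Q y c = 0 → c = 0 := by
      intro c hc hyc
      by_contra hc0
      have hcn : c ∉ Submodule.span F {y} := fun h => by
        obtain ⟨k, hk⟩ := Submodule.mem_span_singleton.1 h
        have hk0 : k ≠ 0 := fun e => hc0 (by rw [← hk, e, zero_smul])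
        exact hyP (by have := P.smul_mem k⁻¹ hc; rwa [← hk, inv_smul_smul₀ hk0] at this)
      obtain ⟨x, hxW, hxy, hcx⟩ := sep_in hQ horth' hsup' (S := Submodule.span F {y}) (Submodule.span_le.2 (by
        rintro v rfl; exact hyW)) hc.1 hcn
      have hyx : B Q y x = 0 := hxy y (Submodule.mem_span_singleton_self y)
      have hst := hstb horth' y hyW x hxW hQy hyx
      have h1 := hinv _ (hN _ (hEΩ (S_mem_E hQy hyx)) hst.2 hst.1) hst.2 hst.1 c hc
      rw [S_apply, B_comm c y, hyc, zero_smul, add_zero, mul_zero, add_zero] at h1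
      have h2 := P.sub_mem hc h1
      rw [sub_sub_cancel, Submodule.smul_mem_iff _ hcx] at h2
      exact hyP h2
    have hplane : W ≤ Submodule.span F {p, y} := by
      intro z hz
      set x := z - (B Q y z / B Q y p) • p with hx
      have hxW : x ∈ W := W.sub_mem hz (W.smul_mem _ hp.1)
      have hyx : B Q y x = 0 := by rw [hx, map_sub, map_smul, smul_eq_mul, div_mul_cancel₀ _ hyp, sub_self]
      have hst := hstb horth' y hyW x hxW hQy hyx
      have h1 := hinv _ (hN _ (hEΩ (S_mem_E hQy hyx)) hst.2 hst.1) hst.2 hst.1 p hp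
      have h2 := P.sub_mem h1 hp
      rw [S_apply, B_comm p y] at h2
      set c := B Q p x + Q x * B Q y p with hc
      have h3 : B Q y p • x - c • y ∈ P := by convert h2 using 1; abel
      have h4 : B Q y p • x - c • y = 0 := hperp _ h3 (by
        rw [map_sub, map_smul, map_smul, hyx, B_self, hQy, mul_zero, smul_zero, smul_zero, sub_zero])
      rw [sub_eq_zero] at h4
      refine Submodule.mem_span_pair.2 ⟨B Q y z / B Q y p, (B Q y p)⁻¹ * c, ?_⟩
      rw [mul_smul, ← h4, inv_smul_smul₀ hyp, hx]; abel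
    have hdim2 : Module.finrank F W = 2 := by
      refine le_antisymm ((Submodule.finrank_mono hplane).trans ((finrank_span_le_card ({p, y} : Set (ι → F))).trans (by
        rw [Set.toFinset_insert, Set.toFinset_singleton]; exact Finset.card_le_two))) ?_
      have hli : LinearIndependent F ![p, y] := LinearIndependent.pair_iff.2 fun s t h => by
        have ht : t = 0 := by
          by_contra ht
          refine hyP ?_
          have := P.smul_mem t⁻¹ (show t • y ∈ P by rw [eq_neg_of_add_eq_zero_right h]; exact P.neg_mem (P.smul_mem s hp))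
          rwa [inv_smul_smul₀ ht] at this
        rw [ht, zero_smul, add_zero, smul_eq_zero] at h
        exact ⟨h.resolve_right fun e => hyp (by rw [e, map_zero]), ht⟩
      have hle : Submodule.span F (Set.range ![p, y]) ≤ W := Submodule.span_le.2 (by
        rintro _ ⟨i, rfl⟩; fin_cases i
        · exact hp.1
        · exact hyW)
      have := Submodule.finrank_mono hle
      rwa [finrank_span_eq_card hli, Fintype.card_fin] at this
    haveI := Fintype.ofFinite F
    have hq : 3 < Fintype.card F := by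
      by_contra h
      exact hex ⟨by rw [Nat.card_eq_fintype_card]; omega, hdim2, y, hyW, fun e => hyp (by rw [e, map_zero, LinearMap.zero_apply]), hQy⟩
    -- two points on the line through y
    have hp0 : p ≠ 0 := fun e => hyp (by rw [e, map_zero])
    have hpp : B Q p p = 0 → Q p = 0 := fun h => by
      by_contra hQp
      obtain ⟨t, ht⟩ : ∃ t : F, t ∉ ({0, -(B Q y p / Q p)} : Finset F) := by
        exact exists_notin _ (lt_of_le_of_lt Finset.card_le_two (by omega))
      simp only [Finset.mem_insert, Finset.mem_singleton, not_or] at ht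
      have hv : Q (y + t • p) ≠ 0 := by
        rw [Q_add, Q_smul, hQy, zero_add, map_smul, smul_eq_mul, show t * t * Q p + t * B Q y p = t * (t * Q p + B Q y p) by ring]
        refine mul_ne_zero ht.1 fun e => ht.2 ?_
        field_simp; linear_combination e
      have := hrefl _ (W.add_mem hyW (W.smul_mem t hp.1)) hv p hp (by
        rw [map_add, LinearMap.add_apply, map_smul, LinearMap.smul_apply, h, smul_zero, add_zero]; exact hyp)
      exact hyP ((P.add_mem_iff_left (P.smul_mem t hp)).1 this)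
    obtain ⟨t, ht⟩ : ∃ t : F, t ∉ ({0, -(B Q y p / Q p), -(B Q y p / B Q p p)} : Finset F) := by
      exact exists_notin _ (lt_of_le_of_lt Finset.card_le_three (by omega))
    simp only [Finset.mem_insert, Finset.mem_singleton, not_or] at ht
    have hv : Q (y + t • p) ≠ 0 := by
      rw [Q_add, Q_smul, hQy, zero_add, map_smul, smul_eq_mul, show t * t * Q p + t * B Q y p = t * (t * Q p + B Q y p) by ring]
      refine mul_ne_zero ht.1 fun e => ?_
      by_cases hQp : Q p = 0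
      · rw [hQp, mul_zero, zero_add] at e; exact hyp e
      · exact ht.2.1 (by field_simp; linear_combination e)
    have := hrefl _ (W.add_mem hyW (W.smul_mem t hp.1)) hv p hp (by
      rw [map_add, LinearMap.add_apply, map_smul, LinearMap.smul_apply, smul_eq_mul]
      intro e
      by_cases h0 : B Q p p = 0
      · rw [h0, mul_zero, add_zero] at e; exact hyp e
      · exact ht.2.2 (by field_simp; linear_combination e))
    exact hyP ((P.add_mem_iff_left (P.smul_mem t hp)).1 this)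
  let Cc : (ι → F) → Prop := fun v => Q v = 0 ∧ ∀ x (hv : Q v = 0) (hx : B Q v x = 0), S v x hv hx ∈ N
  have hC : ∀ v ∈ U, Q v = 0 → Cc v := fun v hvU hv => ⟨hv, fun x hv' hx => by
    obtain ⟨x0, hx0, x1, hx1, rfl⟩ := hdec x
    have e1 : B Q v x1 = 0 := horth v hvU x1 hx1
    have e0 : B Q v x0 = 0 := by rw [map_add, e1, add_zero] at hx; exact hx
    rw [← S_mul hv' e0 e1]
    exact mul_mem (hNU v hvU x0 hx0 hv' e0) ((hPW x1 hx1).2 v hvU hv' e1)⟩
  have orbit : ∀ a b d, Cc a → Cc b → B Q a b ≠ 0 → Q d = 0 → B Q a d ≠ 0 → Cc d := by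
    intro a b d ha hb hab hd had
    refine ⟨hd, fun x hd' hx => ?_⟩
    set b' := (B Q a b)⁻¹ • b with hb'
    set d' := (B Q a d)⁻¹ • d with hd'def
    have e1 : B Q a b' = 1 := by rw [hb', map_smul, smul_eq_mul, inv_mul_cancel₀ hab]
    have e2 : B Q a d' = 1 := by rw [hd'def, map_smul, smul_eq_mul, inv_mul_cancel₀ had]
    have qb : Q b' = 0 := by rw [hb', Q_smul, hb.1, mul_zero]
    have qd : Q d' = 0 := by rw [hd'def, Q_smul, hd, mul_zero]
    have hax : B Q a (d' - b') = 0 := by rw [map_sub, e1, e2, sub_self]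
    have hr := ha.2 _ ha.1 hax
    have hQb := Q_add (Q := Q) b' (d' - b')
    rw [add_sub_cancel, qb, qd] at hQb
    have himg : (S a (d' - b') ha.1 hax).1.1 *ᵥ b' = d' := by
      rw [S_apply, B_comm b' a, e1, one_smul, mul_one, show B Q b' (d' - b') + Q (d' - b') = 0 by linear_combination -hQb,
        zero_smul, sub_zero, add_sub_cancel]
    obtain ⟨y, hy⟩ : ∃ y, (S a (d' - b') ha.1 hax).1.1 *ᵥ y = B Q a d • x := ⟨_, mulVec_inv _ _⟩
    have hd'x : B Q d' (B Q a d • x) = 0 := by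
      rw [hd'def, map_smul, map_smul, LinearMap.smul_apply, hx, smul_zero, smul_zero]
    have hby : B Q b' y = 0 := by rw [← B_gen (S a (d' - b') ha.1 hax), himg, hy]; exact hd'x
    have hyb : B Q b ((B Q a b)⁻¹ • y) = 0 := by
      rw [hb', map_smul, LinearMap.smul_apply] at hby
      rw [map_smul]; exact hby
    have h0 : S b' y qb hby ∈ N := by
      have h1 := hb.2 _ hb.1 hyb
      rw [← S_smul_left hb.1 (B Q a b)⁻¹ (by rw [← hb']; exact hby) hyb] at h1
      exact hN' _ _ _ _ h1 hb'.symm rfl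
    have h2 : S d' (B Q a d • x) qd hd'x ∈ N := hN' _ _ _ _ (hconjS _ hr b' y qb hby h0) himg hy
    have h3 : B Q d ((B Q a d)⁻¹ • B Q a d • x) = 0 := by rw [inv_smul_smul₀ had]; exact hx
    have h4 : S d' (B Q a d • x) qd hd'x = S d ((B Q a d)⁻¹ • B Q a d • x) hd h3 := by
      refine (S_congr qd hd'x (by rw [Q_smul, hd, mul_zero]) (by rw [← hd'def]; exact hd'x) hd'def rfl).trans ?_
      exact S_smul_left hd _ _ h3
    rw [h4] at h2
    exact hN' _ _ _ _ h2 rfl (inv_smul_smul₀ had x)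
  obtain ⟨u', hu'U, hu', -, -, huu'⟩ := iso1 hQ horth hsup hU U.zero_mem U.zero_mem huU (by
    rw [show ({0, 0} : Set (ι → F)) = {0} by simp, Submodule.span_zero_singleton, Submodule.mem_bot]; exact hu0)
  have hall : ∀ d, Q d = 0 → Cc d := fun d hd => by
    by_cases hd0 : d = 0
    · refine ⟨hd, fun x hd' hx => ?_⟩
      have : S d x hd' hx = 1 := ext_mulVec fun z => by simp [S_apply, hd0]
      rw [this]; exact one_mem _
    obtain ⟨r, hr, -, hru, hrd⟩ := CfsgLib.Orth.OmegaSimple.exists_nonperp hQ hn hu hd hu0 hd0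
    exact orbit r u d (orbit u u' r (hC u huU hu) (hC u' hu'U hu') huu' hr (by rw [B_comm]; exact hru)) (hC u huU hu) hru hd hrd
  exact E_le hQ hn fun a x ha hax _ => (hall a ha).2 x ha hax

include hQ hn in
theorem nondeg_maximal {X Y : Submodule F (ι → F)} (horth : ∀ x ∈ X, ∀ y ∈ Y, B Q x y = 0) (hsup : X ⊔ Y = ⊤)
    (hX0 : X ≠ ⊥) (hY0 : Y ≠ ⊥) (hd : Module.finrank F X ≠ Module.finrank F Y)
    (hcard : 13 ≤ Fintype.card ι)
    (hexX : ¬ (Nat.card F ≤ 3 ∧ Module.finrank F X = 2 ∧ ∃ y ∈ X, y ≠ 0 ∧ Q y = 0))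
    (hexY : ¬ (Nat.card F ≤ 3 ∧ Module.finrank F Y = 2 ∧ ∃ y ∈ Y, y ≠ 0 ∧ Q y = 0)) :
    Cfsg.Geo.IsMaximalIn (Cfsg.Geo.omegaGL ⇑Q) (Cfsg.Geo.subspaceStabilizer X ⊓ Cfsg.Geo.omegaGL ⇑Q) := by
  classical
  have horth' : ∀ y ∈ Y, ∀ x ∈ X, B Q y x = 0 := fun y hy x hx => by rw [B_comm]; exact horth x hx y hy
  have hsup' : Y ⊔ X = ⊤ := by rw [sup_comm]; exact hsup
  have hdisj : ∀ x ∈ X, x ∈ Y → x = 0 := fun x hx hx' => hQ.1 x fun z => by
    obtain ⟨a, ha, b, hb, rfl⟩ := Submodule.mem_sup.1 (show z ∈ X ⊔ Y by rw [hsup]; trivial)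
    show B Q x (a + b) = 0
    rw [map_add, horth' x hx' a ha, horth x hx b hb, add_zero]
  have hsum : Module.finrank F X + Module.finrank F Y = Fintype.card ι := by
    have h := Submodule.finrank_sup_add_finrank_inf_eq X Y
    rw [hsup, (Submodule.eq_bot_iff _).2 fun x hx => hdisj x (Submodule.mem_inf.1 hx).1 (Submodule.mem_inf.1 hx).2, finrank_bot, finrank_top,
      Module.finrank_fintype_fun_eq_card, add_zero] at h
    omega
  refine maximal ?_ fun N hN _ g hg hgX => ?_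
  · have key : ∀ {U W : Submodule F (ι → F)}, (∀ x ∈ U, ∀ y ∈ W, B Q x y = 0) → (∀ x ∈ U, x ∈ W → x = 0) → 7 ≤ Module.finrank F U →
        W ≠ ⊥ → U ⊔ W = ⊤ → ∃ A ∈ Cfsg.Omega F ⇑Q, ¬ Stb U A := by
      intro U W ho hd hU hW0 hs
      obtain ⟨w, hwW, hw0⟩ := W.exists_mem_ne_zero_of_ne_bot hW0
      obtain ⟨z, hz⟩ : ∃ z, B Q w z ≠ 0 := by
        by_contra h
        simp only [not_exists, not_not] at h
        exact hw0 (hQ.1 w h)
      obtain ⟨u, huU, hu, hu0, -, -, -⟩ := iso_out (Q := Q) hU (0 : ι → F) 0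
      have huw := ho u huU w hwW
      obtain ⟨e, heU, he, -, -, hue⟩ := iso1 hQ ho hs hU U.zero_mem U.zero_mem huU (by
        rw [show ({0, 0} : Set (ι → F)) = {0} by simp, Submodule.span_zero_singleton, Submodule.mem_bot]; exact hu0)
      refine ⟨S u w hu huw, (omega_eq_E hQ hn).ge (S_mem_E hu huw), fun h => ?_⟩
      have h1 := h e heU
      rw [S_apply] at h1
      have h2 : B Q e u • w ∈ U := by
        have := U.add_mem (U.sub_mem h1 heU) (U.smul_mem (B Q e w + Q w * B Q e u) huU)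
        convert this using 1; abel
      rw [Submodule.smul_mem_iff _ (by rw [B_comm]; exact hue)] at h2
      exact hw0 (hd w h2 hwW)
    rcases lt_or_gt_of_ne hd with hlt | hlt
    · obtain ⟨A, hA, hAY⟩ := key horth' (fun x hx hx' => hdisj x hx' hx) (by omega) hX0 hsup'
      exact ⟨A, hA, fun h => hAY (orth_stb hQ horth hsup h)⟩
    · exact key horth hdisj (by omega) hY0 hsup
  · rw [omega_eq_E hQ hn]
    rcases lt_or_gt_of_ne hd with hlt | hlt
    · exact small_top hQ hn horth' hsup' (by omega) hlt hexX N (fun A hA _ h => hN A hA h) hg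
        (fun h => hgX (orth_stb hQ horth' hsup' h))
    · exact small_top hQ hn horth hsup (by omega) hlt hexY N (fun A hA h _ => hN A hA h) hg hgX

omit [Finite F] in
include hQ in
theorem orth_compl {W : Submodule F (ι → F)} (hW : Cfsg.Geo.IsNondegenerateOn (QuadraticMap.polar ⇑Q) W) :
    ∃ Y : Submodule F (ι → F), (∀ x ∈ W, ∀ y ∈ Y, B Q x y = 0) ∧ W ⊔ Y = ⊤ ∧
      Module.finrank F W + Module.finrank F Y = Fintype.card ι ∧ Cfsg.Geo.IsNondegenerateOn (QuadraticMap.polar ⇑Q) Y := by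
  have hrefl : (B Q).IsRefl := fun a b hab => by rw [B_comm]; exact hab
  set Y := LinearMap.BilinForm.orthogonal (B Q) W with hY
  have horth : ∀ x ∈ W, ∀ y ∈ Y, B Q x y = 0 := fun x hx y hy => hy x hx
  have hdisj : W ⊓ Y = ⊥ := (Submodule.eq_bot_iff _).2 fun x hx => by
    by_contra h0
    obtain ⟨z, hz, hzx⟩ := (hW x (Submodule.mem_inf.1 hx).1 h0).1
    exact hzx (horth z hz x (Submodule.mem_inf.1 hx).2)
  have hd : Module.finrank F Y = Module.finrank F (ι → F) - Module.finrank F W :=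
    LinearMap.BilinForm.finrank_orthogonal hQ W
  rw [Module.finrank_fintype_fun_eq_card] at hd
  have h1 := Submodule.finrank_sup_add_finrank_inf_eq W Y
  rw [hdisj, finrank_bot, add_zero] at h1
  have h2 := Submodule.finrank_le W
  rw [Module.finrank_fintype_fun_eq_card] at h2
  have hsup : W ⊔ Y = ⊤ := Submodule.eq_top_of_finrank_eq (by rw [Module.finrank_fintype_fun_eq_card]; omega)
  refine ⟨Y, horth, hsup, by omega, fun y hy hy0 => ?_⟩
  obtain ⟨z, hz⟩ : ∃ z, B Q y z ≠ 0 := by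
    by_contra h
    simp only [not_exists, not_not] at h
    exact hy0 (hQ.1 y h)
  obtain ⟨a, ha, b, hb, rfl⟩ := Submodule.mem_sup.1 (show z ∈ W ⊔ Y by rw [hsup]; trivial)
  rw [map_add, B_comm y a, horth a ha y hy, zero_add] at hz
  exact ⟨⟨b, hb, by rw [← B_apply, B_comm]; exact hz⟩, ⟨b, hb, hz⟩⟩

omit [Finite F] in
/-- A plane with a singular vector is of plus type. -/
theorem plus_plane {X : Submodule F (ι → F)} (hX : Module.finrank F X = 2) {y : ι → F} (hy : y ∈ X) (hy0 : y ≠ 0)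
    (hQy : Q y = 0) : Cfsg.Geo.IsPlusTypeOn (⇑Q) X :=
  ⟨Submodule.span F {y}, Submodule.span_le.2 (by rintro x rfl; exact hy), fun x hx => by
    obtain ⟨c, rfl⟩ := Submodule.mem_span_singleton.1 hx
    rw [Q_smul, hQy, mul_zero], by rw [finrank_span_singleton hy0, hX]⟩

end CfsgLib.MaxSub.OrthSmall
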