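import Mathlib
import Cfsg.Agent.Lib.MaxSub.OrthSmall

/-!
Stabilisers of a nondegenerate half in a minus-type orthogonal space.
-/

set_option autoImplicit false
open scoped Matrix

namespace CfsgLib.MaxSub.OrthHalf

open CfsgLib.Geometry CfsgLib.Geometry.QuadBasic CfsgLib.Orth.Siegel CfsgLib.MaxSub.OrthStab CfsgLib.MaxSub.OrthSplit CfsgLib.MaxSub.OrthSmall

variable {F : Type*} [Field F] [Finite F] {ι : Type} [Fintype ι] [DecidableEq ι] {P : QuadraticForm F (ι → F)}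

omit [Finite F] in
theorem Q_sum {α : Type*} (s : Finset α) (v : α → (ι → F)) (c : α → F)
    (h : ∀ i l, i ≠ l → B P (v i) (v l) = 0) : P (∑ i ∈ s, c i • v i) = ∑ i ∈ s, c i * c i * P (v i) := by
  classical
  induction s using Finset.induction_on with
  | empty => simp
  | insert a s has ih =>
    rw [Finset.sum_insert has, Finset.sum_insert has, Q_add, Q_smul, ih]
    have : B P (c a • v a) (∑ i ∈ s, c i • v i) = 0 := by
      rw [map_sum]
      refine Finset.sum_eq_zero fun i hi => ?_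
      rw [map_smul, map_smul, LinearMap.smul_apply, h a i (fun e => has (e ▸ hi)), smul_zero, smul_zero]
    rw [this, add_zero]

/-- An anti-isometry of a nondegenerate even-dimensional subspace. -/
theorem exists_anti_isometry {U W : Submodule F (ι → F)} (hP : (QuadraticMap.polarBilin P).Nondegenerate)
    (horth : ∀ u ∈ U, ∀ w ∈ W, B P u w = 0) (hsup : U ⊔ W = ⊤) {j : ℕ} (hd : Module.finrank F U = j * 2) :
    ∃ M : U →ₗ[F] U, ∀ u : U, P (M u).1 = - P u.1 := by
  classical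
  haveI := Fintype.ofFinite F
  by_cases hs : IsSquare (-1 : F)
  · obtain ⟨c, hc⟩ := hs
    exact ⟨c • LinearMap.id, fun u => by
      show P (c • u.1) = _
      rw [Q_smul, ← hc]; ring⟩
  have h2 : (2 : F) ≠ 0 := fun e => by
    haveI : CharP F 2 := CharTwo.of_one_ne_zero_of_two_eq_zero one_ne_zero e
    exact hs (FiniteField.isSquare_of_char_two (ringChar.eq F 2) _)
  haveI : Invertible (2 : F) := invertibleOfNonzero h2
  let BU : LinearMap.BilinForm F U := LinearMap.BilinForm.restrict (B P) U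
  obtain ⟨b0, hb0⟩ := LinearMap.BilinForm.exists_orthogonal_basis (B := BU) ⟨fun a c => by show B P a.1 c.1 = B P c.1 a.1; exact B_comm _ _⟩
  let b := (b0.reindex (finCongr hd)).reindex finProdFinEquiv.symm
  have hbo : ∀ i l, i ≠ l → B P (b i).1 (b l).1 = 0 := fun i l hil => by
    simp only [b, Module.Basis.reindex_apply, Equiv.symm_symm]
    exact hb0 (fun e => hil (finProdFinEquiv.injective ((finCongr hd).symm.injective e)))
  have hbn : ∀ i, P (b i).1 ≠ 0 := fun i h => by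
    refine b.ne_zero i (Subtype.ext (hP.1 _ fun y => ?_))
    obtain ⟨a, ha, c, hc, rfl⟩ := Submodule.mem_sup.1 (show y ∈ U ⊔ W by rw [hsup]; trivial)
    show B P (b i).1 (a + c) = 0
    rw [map_add, horth _ (b i).2 c hc, add_zero]
    have := congrArg Subtype.val (b.sum_repr ⟨a, ha⟩)
    rw [Submodule.coe_sum] at this
    change _ = a at this
    rw [← this, map_sum]
    refine Finset.sum_eq_zero fun l _ => ?_
    rw [Submodule.coe_smul, map_smul]
    by_cases hl : i = l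
    · rw [← hl, B_self, h, mul_zero, smul_zero]
    · rw [hbo i l hl, smul_zero]
  obtain ⟨x, y, hxy⟩ : ∃ x y : F, x * x + y * y = -1 := by
    obtain ⟨x, y, h⟩ := FiniteField.exists_root_sum_quadratic (f := (Polynomial.X ^ 2 : Polynomial F))
      (g := Polynomial.X ^ 2 - Polynomial.C (-1)) (Polynomial.degree_X_pow 2)
      (Polynomial.degree_X_pow_sub_C (by norm_num) (-1))
      (FiniteField.odd_card_of_char_ne_two (fun h => h2 (by
        haveI : CharP F 2 := ringChar.of_eq h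
        exact CharTwo.two_eq_zero)))
    simp at h
    exact ⟨x, y, by linear_combination h⟩
  have hpair : ∀ a : Fin j, ∃ v w : ι → F, v ∈ U ∧ w ∈ U ∧ P v = -P (b (a, 0)).1 ∧ P w = -P (b (a, 1)).1 ∧ B P v w = 0 ∧
      v ∈ Submodule.span F {(b (a, 0)).1, (b (a, 1)).1} ∧ w ∈ Submodule.span F {(b (a, 0)).1, (b (a, 1)).1} := by
    intro a
    set e0 := (b (a, 0)).1 with he0
    set e1 := (b (a, 1)).1 with he1
    have o : B P e0 e1 = 0 := hbo _ _ (by simp)
    have o' : B P e1 e0 = 0 := by rw [B_comm]; exact o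
    by_cases hsq : IsSquare (P e0 / P e1)
    · obtain ⟨s, hs'⟩ := hsq
      have hs0 : s ≠ 0 := fun e => by rw [e, mul_zero, div_eq_zero_iff] at hs'; exact hs'.elim (hbn _) (hbn _)
      have he : P e0 = s * s * P e1 := by rw [← hs', div_mul_cancel₀ _ (hbn _)]
      refine ⟨x • e0 + (s * y) • e1, (-(y / s)) • e0 + x • e1, U.add_mem (U.smul_mem _ (b _).2) (U.smul_mem _ (b _).2),
        U.add_mem (U.smul_mem _ (b _).2) (U.smul_mem _ (b _).2), ?_, ?_, ?_, Submodule.mem_span_pair.2 ⟨_, _, rfl⟩,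
        Submodule.mem_span_pair.2 ⟨_, _, rfl⟩⟩
      · simp only [Q_add, Q_smul, map_smul, LinearMap.smul_apply, o, smul_eq_mul, he]
        linear_combination (s * s * P e1) * hxy
      · simp only [Q_add, Q_smul, map_smul, LinearMap.smul_apply, o, smul_eq_mul, he]
        field_simp
        linear_combination (s * P e1) * hxy
      · simp only [map_add, map_smul, LinearMap.add_apply, LinearMap.smul_apply, o, o', B_self, smul_eq_mul, he]
        field_simp
        ring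
    · have hsq' : IsSquare (-(P e0 / P e1)) := by
        by_contra h
        have h1 := quadraticChar_neg_one_iff_not_isSquare.2 hsq
        have h3 := quadraticChar_neg_one_iff_not_isSquare.2 h
        have h4 := quadraticChar_neg_one_iff_not_isSquare.2 hs
        rw [neg_eq_neg_one_mul, map_mul, h4, h1] at h3
        norm_num at h3
      obtain ⟨s, hs'⟩ := hsq'
      have hs0 : s ≠ 0 := fun e => by rw [e, mul_zero, neg_eq_zero, div_eq_zero_iff] at hs'; exact hs'.elim (hbn _) (hbn _)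
      have he : P e0 = -(s * s) * P e1 := by rw [← hs', neg_neg, div_mul_cancel₀ _ (hbn _)]
      refine ⟨s • e1, s⁻¹ • e0, U.smul_mem _ (b _).2, U.smul_mem _ (b _).2, ?_, ?_, ?_,
        Submodule.mem_span_pair.2 ⟨0, s, by rw [zero_smul, zero_add]⟩, Submodule.mem_span_pair.2 ⟨s⁻¹, 0, by rw [zero_smul, add_zero]⟩⟩
      · rw [Q_smul, he]; ring
      · rw [Q_smul, he]; field_simp
      · simp [o']
  choose v w hvU hwU hv hw hvw hvs hws using hpair
  let im : Fin j × Fin 2 → U := fun i => if i.2 = 0 then ⟨v i.1, hvU i.1⟩ else ⟨w i.1, hwU i.1⟩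
  have him : ∀ i, P (im i).1 = -P (b i).1 := fun ⟨a, e⟩ => by fin_cases e <;> simp [im, hv, hw]
  have hims : ∀ i, (im i).1 ∈ Submodule.span F {(b (i.1, 0)).1, (b (i.1, 1)).1} := fun ⟨a, e⟩ => by
    fin_cases e <;> simp [im, hvs, hws]
  have himo : ∀ i l, i ≠ l → B P (im i).1 (im l).1 = 0 := by
    rintro ⟨a, e⟩ ⟨c, f⟩ hne
    by_cases hac : a = c
    · subst hac
      fin_cases e <;> fin_cases f <;> simp [im, hvw] at hne ⊢
      rw [QuadraticMap.polar_comm]; exact hvw a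
    · obtain ⟨s1, t1, h1⟩ := Submodule.mem_span_pair.1 (hims (a, e))
      obtain ⟨s3, t3, h3⟩ := Submodule.mem_span_pair.1 (hims (c, f))
      rw [← h1, ← h3]
      simp [map_add, map_smul, LinearMap.add_apply, LinearMap.smul_apply, hbo, hac]
  refine ⟨b.constr F im, fun u => ?_⟩
  have e1 : (b.constr F im u).1 = ∑ i, b.repr u i • (im i).1 := by
    rw [Module.Basis.constr_apply_fintype, Submodule.coe_sum]; simp
  have e2 : u.1 = ∑ i, b.repr u i • (b i).1 := by
    conv_lhs => rw [← b.sum_repr u]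
    rw [Submodule.coe_sum]; simp
  rw [e1, e2, Q_sum _ _ _ himo, Q_sum _ _ _ hbo, ← Finset.sum_neg_distrib]
  refine Finset.sum_congr rfl fun i _ => ?_
  rw [him]; ring

variable (hP : (QuadraticMap.polarBilin P).Nondegenerate) (hn5 : 5 ≤ Fintype.card ι)

include hP hn5 in
theorem half_maximal {X Y : Submodule F (ι → F)} (horth : ∀ x ∈ X, ∀ y ∈ Y, B P x y = 0) (hsup : X ⊔ Y = ⊤)
    {j : ℕ} (hXd : Module.finrank F X = j * 2) (hYd : Module.finrank F Y = j * 2) (hj : 4 ≤ j)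
    (hminus : ∀ Z : Submodule F (ι → F), (∀ z ∈ Z, P z = 0) → Module.finrank F Z ≠ j * 2) :
    Cfsg.Geo.IsMaximalIn (Cfsg.Geo.omegaGL ⇑P) (Cfsg.Geo.subspaceStabilizer X ⊓ Cfsg.Geo.omegaGL ⇑P) := by
  classical
  set U := X with hUdef
  set W := Y with hWdef
  have horth' : ∀ w ∈ W, ∀ u ∈ U, B P w u = 0 := fun w hw u hu => by rw [B_comm]; exact horth u hu w hw
  have hsup' : W ⊔ U = ⊤ := by rw [sup_comm]; exact hsup
  have hU7 : 7 ≤ Module.finrank F U := by omega
  have hW7 : 7 ≤ Module.finrank F W := by omega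
  have hdisj : ∀ x ∈ U, x ∈ W → x = 0 := fun x hx hx' => hP.1 x fun y => by
    obtain ⟨a, ha, b, hb, rfl⟩ := Submodule.mem_sup.1 (show y ∈ U ⊔ W by rw [hsup]; trivial)
    show B P x (a + b) = 0
    rw [map_add, horth' x hx' a ha, horth x hx b hb, add_zero]
  have hboth : ∀ a ∈ U, ∀ b ∈ W, a ≠ 0 → b ≠ 0 → a + b ∉ U ∧ a + b ∉ W := fun a ha b hb ha0 hb0 =>
    ⟨fun h => hb0 (hdisj b ((U.add_mem_iff_right ha).1 h) hb), fun h => ha0 (hdisj a ha ((W.add_mem_iff_left hb).1 h))⟩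
  obtain ⟨u, huU, hu, hu0, -, -, -⟩ := iso_out (Q := P) hU7 (0 : ι → F) 0
  refine maximal ?_ fun N hN _ g hgM hgX => ?_
  · obtain ⟨w, hwW, hw, hw0, -, -, -⟩ := iso_out (Q := P) hW7 (0 : ι → F) 0
    have hs : P (u + w) = 0 := by rw [Q_add, hu, hw, horth u huU w hwW, add_zero, add_zero]
    have hs0 : u + w ≠ 0 := fun e => (hboth u huU w hwW hu0 hw0).1 (e ▸ U.zero_mem)
    obtain ⟨A, c, hA⟩ := CfsgLib.Orth.OmegaSimple.exists_map hP hn5 hu hs hu0 hs0
    refine ⟨A.1, A.2, fun h => ?_⟩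
    have hc : c ≠ 0 := fun e => hu0 (by
      rw [e, zero_smul] at hA
      rw [← inv_mulVec A.1 u, hA, Matrix.mulVec_zero])
    have hmem := h u huU
    rw [hA, Submodule.smul_mem_iff _ hc] at hmem
    exact (hboth u huU w hwW hu0 hw0).1 hmem
  have hEΩ : E P ≤ Cfsg.Omega F ⇑P := (omega_eq_E hP hn5).ge
  have hNU : ∀ a ∈ U, ∀ x ∈ U, ∀ (ha : P a = 0) (hax : B P a x = 0), S a x ha hax ∈ N := fun a haX x hxX ha hax =>
    hN _ (hEΩ (S_mem_E ha hax)) fun z hz => by
      rw [S_apply]; exact U.sub_mem (U.add_mem hz (U.smul_mem _ hxX)) (U.smul_mem _ haX)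
  have hNW : ∀ a ∈ W, ∀ x ∈ W, ∀ (ha : P a = 0) (hax : B P a x = 0), S a x ha hax ∈ N := fun a haX x hxX ha hax =>
    hN _ (hEΩ (S_mem_E ha hax)) fun z hz => by
      rw [S_apply, horth z hz a haX, horth z hz x hxX]; simpa using hz
  rw [omega_eq_E hP hn5]
  by_cases hex : ∃ u ∈ U, P u = 0 ∧ u ≠ 0 ∧ g.1.1 *ᵥ u ∉ U ∧ g.1.1 *ᵥ u ∉ W
  · obtain ⟨u₀, hu₀U, hu₀, hu₀0, hgu⟩ := hex
    obtain ⟨x₀, hx₀U, hx₀, -, hux, -, hxn⟩ := iso_out (Q := P) hU7 u₀ u₀
    exact split_top hP hn5 horth hsup hU7 hW7 N hNU hNW (g := g) hgM hu₀U hx₀U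
      hu₀ hx₀ hux (by simpa using hxn) hgu
  exfalso
  simp only [not_exists, not_and, not_not] at hex
  have hside : ∀ z ∈ U, P z = 0 → z ≠ 0 → g.1.1 *ᵥ z ∈ U ∨ g.1.1 *ᵥ z ∈ W := fun z hz hQz hz0 =>
    or_iff_not_imp_left.2 fun h => hex z hz hQz hz0 h
  have hne0 : ∀ z, z ≠ 0 → g.1.1 *ᵥ z ≠ 0 := fun z hz e => hz (by rw [← inv_mulVec g z, e, Matrix.mulVec_zero])
  have pairstep : ∀ a ∈ U, ∀ b ∈ U, P a = 0 → P b = 0 → B P a b = 0 → a ≠ 0 → b ≠ 0 → a + b ≠ 0 →
      ((g.1.1 *ᵥ a ∈ U → g.1.1 *ᵥ b ∈ U) ∧ (g.1.1 *ᵥ a ∈ W → g.1.1 *ᵥ b ∈ W)) := by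
    intro a ha b hb hQa hQb hab ha0 hb0 hab0
    have hs : P (a + b) = 0 := by rw [Q_add, hQa, hQb, hab, add_zero, add_zero]
    have h3 := hside _ (U.add_mem ha hb) hs hab0
    rw [Matrix.mulVec_add] at h3
    constructor
    · intro h1
      rcases hside b hb hQb hb0 with h | h
      · exact h
      · rcases h3 with h3 | h3
        · exact absurd h3 (hboth _ h1 _ h (hne0 a ha0) (hne0 b hb0)).1
        · exact absurd h3 (hboth _ h1 _ h (hne0 a ha0) (hne0 b hb0)).2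
    · intro h1
      rcases hside b hb hQb hb0 with h | h
      · rw [add_comm] at h3
        rcases h3 with h3 | h3
        · exact absurd h3 (hboth _ h _ h1 (hne0 b hb0) (hne0 a ha0)).1
        · exact absurd h3 (hboth _ h _ h1 (hne0 b hb0) (hne0 a ha0)).2
      · exact h
  have hspan : ∀ (Y : Submodule F (ι → F)), (∀ z ∈ U, P z = 0 → g.1.1 *ᵥ z ∈ Y) → ∀ z ∈ U, g.1.1 *ᵥ z ∈ Y := by
    intro Y hY z hz
    obtain ⟨y, hyU, hy, -, -, huy⟩ := iso1 hP horth hsup hU7 U.zero_mem U.zero_mem huU (by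
      rw [show ({0, 0} : Set (ι → F)) = {0} by simp, Submodule.span_zero_singleton, Submodule.mem_bot]; exact hu0)
    have hy' : B P u ((B P u y)⁻¹ • y) = 1 := by rw [map_smul, smul_eq_mul, inv_mul_cancel₀ huy]
    have hzs := span_singular (Q := P) (H := U) huU (U.smul_mem (B P u y)⁻¹ hyU) hu (by rw [Q_smul, hy, mul_zero]) hy' hz
    have hle : Submodule.span F {x | x ∈ U ∧ P x = 0} ≤ Y.comap (Matrix.mulVecLin g.1.1) :=
      Submodule.span_le.2 fun x hx => hY x hx.1 hx.2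
    exact hle hzs
  have hall : (∀ z ∈ U, P z = 0 → z ≠ 0 → g.1.1 *ᵥ z ∈ U) ∨ (∀ z ∈ U, P z = 0 → z ≠ 0 → g.1.1 *ᵥ z ∈ W) := by
    have trans : ∀ z ∈ U, P z = 0 → z ≠ 0 → ((g.1.1 *ᵥ u ∈ U → g.1.1 *ᵥ z ∈ U) ∧ (g.1.1 *ᵥ u ∈ W → g.1.1 *ᵥ z ∈ W)) := by
      intro z hz hQz hz0
      obtain ⟨d, hdU, hd, hd0, hud, hzd, hdn⟩ := iso_out (Q := P) hU7 u z
      have h1 := pairstep u huU d hdU hu hd hud hu0 hd0 (fun e => hdn (Submodule.mem_span_pair.2
        ⟨-1, 0, by rw [zero_smul, add_zero, neg_one_smul, ← eq_neg_of_add_eq_zero_right e]⟩))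
      have h2 := pairstep d hdU z hz hd hQz (by rw [B_comm]; exact hzd) hd0 hz0 (fun e => hdn (Submodule.mem_span_pair.2
        ⟨0, -1, by rw [zero_smul, zero_add, neg_one_smul, ← eq_neg_of_add_eq_zero_left e]⟩))
      exact ⟨fun h => h2.1 (h1.1 h), fun h => h2.2 (h1.2 h)⟩
    rcases hside u huU hu hu0 with h | h
    · exact Or.inl fun z hz hQz hz0 => (trans z hz hQz hz0).1 h
    · exact Or.inr fun z hz hQz hz0 => (trans z hz hQz hz0).2 h
  have hfill : ∀ (Y : Submodule F (ι → F)), (∀ z ∈ U, P z = 0 → z ≠ 0 → g.1.1 *ᵥ z ∈ Y) → ∀ z ∈ U, g.1.1 *ᵥ z ∈ Y :=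
    fun Y hY => hspan Y fun z hz hQz => by
      by_cases hz0 : z = 0
      · rw [hz0, Matrix.mulVec_zero]; exact Y.zero_mem
      · exact hY z hz hQz hz0
  rcases hall with h | h
  · exact hgX (hfill U h)
  · have hW' := hfill W h
    obtain ⟨Mm, hM⟩ := exists_anti_isometry hP horth hsup hXd
    let T : U →ₗ[F] (ι → F) := U.subtype + (Matrix.mulVecLin g.1.1).comp (U.subtype.comp Mm)
    have hTa : ∀ z : U, T z = z.1 + g.1.1 *ᵥ (Mm z).1 := fun z => rfl
    have hinj : Function.Injective T := (injective_iff_map_eq_zero T).2 fun z hz => by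
      rw [hTa] at hz
      refine Subtype.ext (hdisj z.1 z.2 ?_)
      rw [eq_neg_of_add_eq_zero_left hz]
      exact W.neg_mem (hW' _ (Mm z).2)
    refine hminus (LinearMap.range T) ?_ ((LinearMap.finrank_range_of_inj hinj).trans hXd)
    rintro _ ⟨z, rfl⟩
    rw [hTa, Q_add, Q_gen, hM, horth z.1 z.2 _ (hW' _ (Mm z).2), add_zero, add_neg_cancel]

end CfsgLib.MaxSub.OrthHalf
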