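import Mathlib
import Cfsg.Prelude.Def_GeometricClasses
import Cfsg.Agent.Lib.Unitary.GenerationMain

/-!
Subspaces of a unitary space: orthogonals, anisotropic vectors, reflections inside a subspace.
-/

set_option autoImplicit false
open scoped Matrix

namespace CfsgLib.MaxSub.SUTools

open CfsgLib.Unitary.FieldNorm CfsgLib.Unitary.Basic CfsgLib.Unitary.Order CfsgLib.Unitary.Isotropic
open CfsgLib.Unitary.Generation CfsgLib.Unitary.GenerationMain

variable {F : Type*} [Field F] [Fintype F] {q n : ℕ}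

local notation "H" => Cfsg.hermForm n F q

/-- The orthogonal of a set of vectors. -/
def orth (q : ℕ) (S : Set (Fin n → F)) : Submodule F (Fin n → F) where
  carrier := {x | ∀ s ∈ S, Cfsg.hermForm n F q x s = 0}
  add_mem' := fun {a b} ha hb s hs => by rw [H_add_left, ha s hs, hb s hs, add_zero]
  zero_mem' := fun s _ => by simp [Cfsg.hermForm]
  smul_mem' := fun c {a} ha s hs => by rw [H_smul_left, ha s hs, mul_zero]

theorem orth_symm (hF : Fintype.card F = q ^ 2) {x y : Fin n → F} (h : H x y = 0) : H y x = 0 := by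
  rw [← H_conj hF, h, zero_pow (q_ne_zero hF)]

theorem orth_dim (hF : Fintype.card F = q ^ 2) (S : Submodule F (Fin n → F)) :
    Module.finrank F (orth q (S : Set (Fin n → F))) + Module.finrank F S = n := by
  classical
  let b := Module.finBasis F S
  let L : (Fin n → F) →ₗ[F] (Fin (Module.finrank F S) → F) :=
    { toFun := fun x i => H x (b i).1
      map_add' := fun x y => funext fun i => H_add_left x y _
      map_smul' := fun c x => funext fun i => H_smul_left c x _ }
  have hker : LinearMap.ker L = orth q (S : Set (Fin n → F)) := by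
    ext x
    refine ⟨fun h s hs => ?_, fun h => LinearMap.mem_ker.2 (funext fun i => h _ (b i).2)⟩
    have hs' : s = ∑ i, b.repr ⟨s, hs⟩ i • (b i).1 := by
      have := congrArg Subtype.val (b.sum_repr ⟨s, hs⟩)
      simp only [Submodule.coe_sum, Submodule.coe_smul] at this
      exact this.symm
    have h' : ∀ i, H x (b i).1 = 0 := fun i => congrFun (LinearMap.mem_ker.1 h) i
    rw [hs']
    generalize b.repr ⟨s, hs⟩ = r
    induction (Finset.univ : Finset (Fin (Module.finrank F S))) using Finset.induction with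
    | empty => simp [Cfsg.hermForm, q_ne_zero hF]
    | insert i t hi ih => rw [Finset.sum_insert hi, H_add_right hF, H_smul_right, h', mul_zero, ih, add_zero]
  have hsurj : Function.Surjective L := by
    rw [← LinearMap.dualMap_injective_iff, injective_iff_map_eq_zero]
    intro φ hφ
    refine LinearMap.ext fun y => ?_
    set c : Fin (Module.finrank F S) → F := fun i => φ (Pi.single i 1) with hc
    have hφc : ∀ y, φ y = ∑ i, y i * c i := fun y => by
      conv_lhs => rw [pi_eq_sum_univ' y]
      simp [map_sum, hc]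
    set v : Fin n → F := ∑ i, (c i) ^ q • (b i).1 with hv
    have hxv : ∀ x, H x v = 0 := fun x => by
      have h1 : φ (L x) = 0 := LinearMap.congr_fun hφ x
      rw [hφc] at h1
      rw [hv, ← h1]
      show H x (∑ i, (c i) ^ q • (b i).1) = ∑ i, H x (b i).1 * c i
      induction (Finset.univ : Finset (Fin (Module.finrank F S))) using Finset.induction with
      | empty => simp [Cfsg.hermForm, q_ne_zero hF]
      | insert i t hi ih =>
        rw [Finset.sum_insert hi, Finset.sum_insert hi, H_add_right hF, H_smul_right, pow_q_q hF, ih, mul_comm]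
    have h0 : (∑ i, (c i) ^ q • b i : S) = 0 := by
      refine Subtype.ext ?_
      rw [ZeroMemClass.coe_zero, ← vec_eq_zero hF hxv, hv]
      simp
    have := Fintype.linearIndependent_iff.1 b.linearIndependent (fun i => (c i) ^ q) h0
    rw [hφc, LinearMap.zero_apply]
    exact Finset.sum_eq_zero fun i _ => by rw [eq_zero_of_pow_eq_zero (this i), mul_zero]
  have h1 := L.finrank_range_add_finrank_ker
  rw [LinearMap.range_eq_top.2 hsurj, finrank_top, hker, Module.finrank_fintype_fun_eq_card, Module.finrank_fintype_fun_eq_card,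
    Fintype.card_fin, Fintype.card_fin] at h1
  omega

theorem aniso_of_ne (hF : Fintype.card F = q ^ 2) {S : Submodule F (Fin n → F)} {a b : Fin n → F} (ha : a ∈ S) (hb : b ∈ S)
    (h : H a b ≠ 0) : ∃ e ∈ S, H e e ≠ 0 := by
  by_contra hc
  simp only [not_exists, not_and, not_not] at hc
  obtain ⟨t, ht⟩ := exists_trace_one hF
  have := hc (a + (t / H a b) ^ q • b) (S.add_mem ha (S.smul_mem _ hb))
  simp only [H_add_left, H_add_right hF, H_smul_left, H_smul_right, hc a ha, hc b hb, pow_q_q hF] at this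
  rw [← H_conj hF a b] at this
  have e1 : t / H a b * H a b = t := div_mul_cancel₀ _ h
  have e2 : (t / H a b) ^ q * H a b ^ q = t ^ q := by rw [← mul_pow, e1]
  exact one_ne_zero (α := F) (by linear_combination this - ht - e1 - e2)

/-- A subspace of dimension more than half its ambient nondegenerate space has anisotropic vectors. -/
theorem exists_aniso (hF : Fintype.card F = q ^ 2) (S A : Submodule F (Fin n → F)) (hSA : ∀ s ∈ S, ∀ a ∈ A, H s a = 0)
    (hAS : Disjoint S A) (h : n < 2 * Module.finrank F S + Module.finrank F A) : ∃ e ∈ S, H e e ≠ 0 := by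
  by_contra hc
  have hiso : ∀ a ∈ S, ∀ b ∈ S, H a b = 0 := fun a ha b hb => by
    by_contra hne; exact hc (aniso_of_ne hF ha hb hne)
  have hle : S ⊔ A ≤ orth q (S : Set (Fin n → F)) :=
    sup_le (fun x hx s hs => hiso x hx s hs) fun a ha s hs => orth_symm hF (hSA s hs a ha)
  have h1 := Submodule.finrank_mono hle
  have h2 := orth_dim hF S
  have h3 := Submodule.finrank_sup_add_finrank_inf_eq S A
  rw [hAS.eq_bot, finrank_bot] at h3
  omega

/-- Elements of the unitary group acting only on `S`. -/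
def Sup (S : Submodule F (Fin n → F)) (g : Cfsg.GU n F q) : Prop :=
  (∀ x, g.1.1 *ᵥ x - x ∈ S) ∧ ∀ x, (∀ s ∈ S, Cfsg.hermForm n F q x s = 0) → g.1.1 *ᵥ x = x

theorem Sup_mul {S : Submodule F (Fin n → F)} {g h : Cfsg.GU n F q} (hg : Sup S g) (hh : Sup S h) : Sup S (g * h) := by
  constructor
  · intro x
    rw [mulVec_mul]
    have := S.add_mem (hg.1 (h.1.1 *ᵥ x)) (hh.1 x)
    rwa [sub_add_sub_cancel] at this
  · intro x hx; rw [mulVec_mul, hh.2 x hx, hg.2 x hx]

theorem qrefl (hF : Fintype.card F = q ^ 2) {S : Submodule F (Fin n → F)} {e : Fin n → F} (he : e ∈ S) {a : F}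
    (ha : a + a ^ q + a * a ^ q * H e e = 0) :
    ∃ g : Cfsg.GU n F q, Sup S g ∧ (∀ x, g.1.1 *ᵥ x = x + (a * H x e) • e) ∧ g.1.1.det = 1 + a * H e e := by
  refine ⟨mkGU hF _ (umat_preserves hF e a ha), ⟨fun x => ?_, fun x hx => ?_⟩, fun x => umat_mulVec e a x, ?_⟩
  · show Cfsg.unitaryTransvection n q e a *ᵥ x - x ∈ S
    rw [umat_mulVec, add_sub_cancel_left]; exact S.smul_mem _ he
  · show Cfsg.unitaryTransvection n q e a *ᵥ x = x
    rw [umat_mulVec, hx e he, mul_zero, zero_smul, add_zero]
  · show (Cfsg.unitaryTransvection n q e a).det = _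
    have h : Cfsg.unitaryTransvection n q e a = 1 + Matrix.vecMulVec e (fun i => a * e i ^ q) :=
      Matrix.ext_iff_mulVec.2 fun x => by
        rw [umat_mulVec, Matrix.add_mulVec, Matrix.one_mulVec, Matrix.vecMulVec_mulVec]
        funext i
        simp [dotProduct, Cfsg.hermForm, Finset.mul_sum, Finset.sum_mul, mul_comm, mul_left_comm]
    rw [h, Matrix.vecMulVec_eq Unit, Matrix.det_one_add_replicateCol_mul_replicateRow]
    simp [dotProduct, Cfsg.hermForm, Finset.mul_sum, mul_comm, mul_left_comm]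

/-- Two vectors of the same non-zero norm. -/
theorem move (hF : Fintype.card F = q ^ 2) {S : Submodule F (Fin n → F)} {u v : Fin n → F} (hu : u ∈ S) (hv : v ∈ S)
    (h : H u u = H v v) (h0 : H u u ≠ 0) : ∃ g : Cfsg.GU n F q, Sup S g ∧ g.1.1 *ᵥ u = v := by
  have step : ∀ {u v : Fin n → F}, u ∈ S → v ∈ S → H v v = H u u → H u v ≠ H u u →
      ∃ g : Cfsg.GU n F q, Sup S g ∧ g.1.1 *ᵥ u = v := by
    intro u v hu hv h hne
    set d := H u u - H u v with hd
    have hd0 : d ≠ 0 := sub_ne_zero.2 (Ne.symm hne)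
    have huw : H u (u - v) = d := by rw [H_sub_right hF]
    have hww : H (u - v) (u - v) = d + d ^ q := by
      rw [hd, sub_pow_q hF, H_self_fixed hF, H_conj hF, H_sub_left, H_sub_right hF, H_sub_right hF, h]; ring
    obtain ⟨g, hg, hgx, -⟩ := qrefl hF (S.sub_mem hu hv) (a := -d⁻¹) (by
      rw [hww, neg_pow_q hF, inv_pow]
      have : d ^ q ≠ 0 := pow_ne_zero _ hd0
      field_simp
      ring)
    exact ⟨g, hg, by rw [hgx, huw, neg_mul, inv_mul_cancel₀ hd0, neg_one_smul]; abel⟩
  by_cases hne : H u v = H u u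
  · obtain ⟨t, ht, ht1, -⟩ := exists_unit_ne_one hF
    have ht' : t * t ^ q = 1 := by rw [← pow_succ', ht]
    have htt : H (t • u) (t • u) = H u u := by
      rw [H_smul_left, H_smul_right, ← mul_assoc, ht', one_mul]
    obtain ⟨g, hg, hgu⟩ := step hu (S.smul_mem t hu) htt (by
      rw [H_smul_right]
      intro e
      apply ht1
      have : t ^ q = 1 := mul_right_cancel₀ h0 (by rw [one_mul]; exact e)
      rwa [this, mul_one] at ht')
    obtain ⟨k, hk, hku⟩ := step (S.smul_mem t hu) hv (by rw [htt]; exact h.symm) (by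
      rw [htt, H_smul_left, hne]
      intro e
      exact ht1 (mul_right_cancel₀ h0 (by rw [one_mul]; exact e)))
    exact ⟨k * g, Sup_mul hk hg, by rw [mulVec_mul, hgu, hku]⟩
  · exact step hu hv h.symm hne

/-- A special unitary element from a unitary one and an anisotropic vector. -/
theorem fix_det (hF : Fintype.card F = q ^ 2) (g : Cfsg.GU n F q) {S : Submodule F (Fin n → F)} {e : Fin n → F}
    (he : e ∈ S) (hee : H e e ≠ 0) :
    ∃ r : Cfsg.GU n F q, Sup S r ∧ (∀ x, H x e = 0 → r.1.1 *ᵥ x = x) ∧ ∃ h : Cfsg.SU n F q, h.1.1 = (r * g).1.1 := by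
  set D := g.1.1.det with hD
  have hDn : D * D ^ q = 1 := by rw [← pow_succ']; exact det_norm hF g
  have hD0 : D ≠ 0 := left_ne_zero_of_mul_eq_one hDn
  have hDi : D ^ q = D⁻¹ := (inv_eq_of_mul_eq_one_right hDn).symm
  obtain ⟨r, hr, hrx, hrd⟩ := qrefl hF he (a := (D⁻¹ - 1) / H e e) (by
    rw [div_pow, sub_pow_q hF, one_pow, inv_pow, hDi, inv_inv, H_self_fixed hF]
    field_simp
    ring)
  refine ⟨r, hr, fun x hx => by rw [hrx, hx, mul_zero, zero_smul, add_zero], ⟨⟨(r * g).1.1, ?_⟩, (r * g).2⟩, rfl⟩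
  show (r.1.1 * g.1.1).det = 1
  rw [Matrix.det_mul, hrd, div_mul_cancel₀ _ hee, ← hD, add_sub_cancel, inv_mul_cancel₀ hD0]

end CfsgLib.MaxSub.SUTools
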