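import Mathlib
import Cfsg.Agent.Lib.MaxSub.SUTools

/-!
Stabilisers of nondegenerate subspaces in special unitary groups are maximal.
-/

set_option autoImplicit false
open scoped Matrix

namespace CfsgLib.MaxSub.SUStab

open CfsgLib.Unitary.FieldNorm CfsgLib.Unitary.Basic CfsgLib.Unitary.Order CfsgLib.Unitary.Isotropic
open CfsgLib.Unitary.Generation CfsgLib.Unitary.GenerationMain CfsgLib.MaxSub.SUTools

variable {F : Type*} [Field F] [Fintype F] {q n : ℕ}

local notation "H" => Cfsg.hermForm n F q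

/-- Stabilising a subspace. -/
def Stb (W : Submodule F (Fin n → F)) (A : Cfsg.SU n F q) : Prop := ∀ w ∈ W, A.1.1 *ᵥ w ∈ W

/-- Isotropic transvection centres of a subgroup. -/
def C (N : Subgroup (Cfsg.SU n F q)) (v : Fin n → F) : Prop :=
  Cfsg.hermForm n F q v v = 0 ∧
    ∀ g : Cfsg.SU n F q, (∃ c, ∀ x, g.1.1 *ᵥ x = x + (c * Cfsg.hermForm n F q x v) • v) → g ∈ N

theorem C_map {N : Subgroup (Cfsg.SU n F q)} {g : Cfsg.SU n F q} (hg : g ∈ N) {v : Fin n → F}
    (hv : C N v) : C N (g.1.1 *ᵥ v) := by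
  refine ⟨by rw [SU_H]; exact hv.1, fun t ⟨c, ht⟩ => ?_⟩
  have h : g⁻¹ * t * g ∈ N := hv.2 _ ⟨c, fun x => by
    rw [su_mulVec, su_mulVec, ht, SU_H, Matrix.mulVec_add, Matrix.mulVec_smul, su_inv_cancel, su_inv_cancel]⟩
  have := mul_mem (mul_mem hg h) (inv_mem hg)
  rwa [show g * (g⁻¹ * t * g) * g⁻¹ = t by group] at this

theorem C_smul {N : Subgroup (Cfsg.SU n F q)} {v : Fin n → F} (hv : C N v) (a : F) : C N (a • v) := by
  refine ⟨by rw [H_smul_left, H_smul_right, hv.1, mul_zero, mul_zero], fun g ⟨c, hg⟩ => hv.2 g ⟨c * a ^ q * a, fun x => ?_⟩⟩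
  rw [hg, H_smul_right, smul_smul]; congr 2; ring

theorem top_of_C (hF : Fintype.card F = q ^ 2) (hn : 4 ≤ n) {N : Subgroup (Cfsg.SU n F q)}
    (h : ∀ v, H v v = 0 → C N v) : N = ⊤ := by
  rw [eq_top_iff, ← closure_eq_top hF (Or.inl hn)]
  refine (Subgroup.closure_le _).2 ?_
  rintro t ⟨v, c, hv, ht⟩
  exact (h v hv).2 t ⟨c, fun x => by rw [ht, umat_mulVec]⟩

theorem tv_fix {W : Submodule F (Fin n → F)} {g : Cfsg.SU n F q} {c : F} {v : Fin n → F}
    (hg : ∀ x, g.1.1 *ᵥ x = x + (c * H x v) • v) (h : v ∈ W ∨ ∀ w ∈ W, H w v = 0) : Stb W g := fun w hw => by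
  rw [hg]
  rcases h with h | h
  · exact W.add_mem hw (W.smul_mem _ h)
  · rw [h w hw, mul_zero, zero_smul, add_zero]; exact hw

theorem nondeg_top (hF : Fintype.card F = q ^ 2) (hn : 13 ≤ n) {W : Submodule F (Fin n → F)} (hW0 : W ≠ ⊥)
    (hW : ∀ x ∈ W, x ≠ 0 → ∃ z ∈ W, H x z ≠ 0) (hdim : 2 * Module.finrank F W < n)
    (N : Subgroup (Cfsg.SU n F q)) (hN : ∀ A, Stb W A → A ∈ N) {g : Cfsg.SU n F q} (hg : g ∈ N) (hgW : ¬ Stb W g) :
    N = ⊤ := by
  classical
  have hq0 := q_ne_zero hF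
  obtain ⟨W', hW'⟩ : ∃ W', W' = orth q (W : Set (Fin n → F)) := ⟨_, rfl⟩
  have perp : ∀ {u w}, u ∈ W' → w ∈ W → H u w = 0 := fun hu hw => by rw [hW'] at hu; exact hu _ hw
  have perp' : ∀ {u w}, u ∈ W' → w ∈ W → H w u = 0 := fun hu hw => orth_symm hF (perp hu hw)
  have hint : ∀ x, x ∈ W → x ∈ W' → x = 0 := fun x hx hx' => by
    by_contra h0
    obtain ⟨z, hz, hne⟩ := hW x hx h0
    exact hne (perp hx' hz)
  have hdis : W ⊓ W' = ⊥ := eq_bot_iff.2 fun x hx => (Submodule.mem_bot F).2 (hint x hx.1 hx.2)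
  have hdW' : Module.finrank F W' + Module.finrank F W = n := by rw [hW']; exact orth_dim hF W
  have hdec : ∀ x, ∃ w ∈ W, x - w ∈ W' := fun x => by
    have h2 := Submodule.finrank_sup_add_finrank_inf_eq W W'
    rw [hdis, finrank_bot] at h2
    have hV : Module.finrank F (Fin n → F) = n := by rw [Module.finrank_fintype_fun_eq_card, Fintype.card_fin]
    have htop : W ⊔ W' = ⊤ := Submodule.eq_top_of_finrank_eq (by omega)
    obtain ⟨w, hw, u, hu, rfl⟩ := Submodule.mem_sup.1 (htop ▸ Submodule.mem_top (x := x))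
    exact ⟨w, hw, by rwa [add_sub_cancel_left]⟩
  have hWp : ∀ {x}, (∀ a ∈ W', H x a = 0) → x ∈ W := fun {x} h => by
    obtain ⟨w, hw, hu⟩ := hdec x
    suffices x - w = 0 by rw [sub_eq_zero.1 this]; exact hw
    refine vec_eq_zero hF fun y => ?_
    obtain ⟨w', hw', hu'⟩ := hdec y
    refine orth_symm hF ?_
    rw [← add_sub_cancel w' y, H_add_right hF, perp hu hw', zero_add, H_sub_left, h _ hu', perp' hu' hw, sub_zero]
  -- anisotropic vectors of `W'` orthogonal to one or two given vectors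
  have anp : ∀ a b : Fin n → F, ∃ e ∈ W', H e e ≠ 0 ∧ H e a = 0 ∧ H e b = 0 := fun a b => by
    set P := W' ⊓ orth q ((Submodule.span F {a, b} : Submodule F (Fin n → F)) : Set (Fin n → F)) with hP
    have hd2 : Module.finrank F (Submodule.span F ({a, b} : Set (Fin n → F))) ≤ 2 :=
      (finrank_span_le_card _).trans (by
        rw [Set.toFinset_insert, Set.toFinset_singleton]
        exact (Finset.card_insert_le _ _).trans (by simp))
    have h1 := orth_dim hF (Submodule.span F ({a, b} : Set (Fin n → F)))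
    have h2 := Submodule.finrank_sup_add_finrank_inf_eq W'
      (orth q ((Submodule.span F {a, b} : Submodule F (Fin n → F)) : Set (Fin n → F)))
    have h3 := Submodule.finrank_le (W' ⊔ orth q ((Submodule.span F {a, b} : Submodule F (Fin n → F)) : Set (Fin n → F)))
    rw [Module.finrank_fintype_fun_eq_card, Fintype.card_fin] at h3
    rw [← hP] at h2
    obtain ⟨e, he, hee⟩ := exists_aniso hF P W (fun s hs a ha => perp hs.1 ha)
      (disjoint_iff_inf_le.2 fun x hx => (Submodule.mem_bot F).2 (hint x hx.2 hx.1.1)) (by omega)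
    exact ⟨e, he.1, hee, he.2 a (Submodule.subset_span (Set.mem_insert a _)),
      he.2 b (Submodule.subset_span (Set.mem_insert_of_mem a rfl))⟩
  have scale : ∀ {e : Fin n → F} {c : F}, H e e ≠ 0 → c ≠ 0 → c ^ q = c → ∃ a : F, H (a • e) (a • e) = c := by
    intro e c he hc hcq
    obtain ⟨a, ha⟩ := exists_norm hF (c := c / H e e) (div_ne_zero hc he) (by rw [div_pow, hcq, H_self_fixed hF])
    exact ⟨a, by rw [H_smul_left, H_smul_right, ← mul_assoc, ← pow_succ', ha, div_mul_cancel₀ _ he]⟩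
  have hCW : ∀ v ∈ W, H v v = 0 → C N v := fun v hv hi => ⟨hi, fun t ⟨c, ht⟩ => hN _ (tv_fix ht (Or.inl hv))⟩
  have hCW' : ∀ v ∈ W', H v v = 0 → C N v := fun v hv hi =>
    ⟨hi, fun t ⟨c, ht⟩ => hN _ (tv_fix ht (Or.inr fun w hw => perp' hv hw))⟩
  have stb_of_sup : ∀ (g : Cfsg.GU n F q) (h : Cfsg.SU n F q), h.1.1 = g.1.1 → (∀ w ∈ W, g.1.1 *ᵥ w ∈ W) → h ∈ N :=
    fun g h e hW => hN _ fun w hw => by rw [e]; exact hW w hw
  have supW : ∀ {g : Cfsg.GU n F q}, Sup W g → ∀ w ∈ W, g.1.1 *ᵥ w ∈ W := fun {g} hg w hw => by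
    have := W.add_mem (hg.1 w) hw
    rwa [sub_add_cancel] at this
  -- a mixed vector
  obtain ⟨w0, u0, hw0, hw00, hu0, hu00, hC0⟩ :
      ∃ w0 u0, w0 ∈ W ∧ w0 ≠ 0 ∧ u0 ∈ W' ∧ u0 ≠ 0 ∧ C N (w0 + u0) := by
    by_contra h
    simp only [not_exists, not_and] at h
    have split : ∀ x, C N x → x ∈ W ∨ x ∈ W' := fun x hx => by
      obtain ⟨w, hw, hd⟩ := hdec x
      by_cases h1 : w = 0
      · rw [h1, sub_zero] at hd; exact Or.inr hd
      by_cases h2 : x - w = 0
      · rw [sub_eq_zero.1 h2]; exact Or.inl hw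
      · exact absurd (by rw [add_sub_cancel]; exact hx) (h w (x - w) hw h1 hd h2)
    have himg : ∀ a ∈ W', g.1.1 *ᵥ a ∈ W ∨ g.1.1 *ᵥ a ∈ W' := by
      intro a ha
      by_cases hi : H a a = 0
      · exact split _ (C_map hg (hCW' a ha hi))
      · obtain ⟨b0, hb0, hbb, hba, -⟩ := anp a a
        obtain ⟨s, hs⟩ := scale hbb (neg_ne_zero.2 hi) (by rw [neg_pow_q hF, H_self_fixed hF])
        obtain ⟨t, ht, ht1, -⟩ := exists_unit_ne_one hF
        have ht' : t * t ^ q = 1 := by rw [← pow_succ', ht]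
        set b := s • b0 with hb
        have hbW : b ∈ W' := W'.smul_mem s hb0
        have hba' : H b a = 0 := by rw [hb, H_smul_left, hba, mul_zero]
        have hab' : H a b = 0 := orth_symm hF hba'
        have i1 : H (a + b) (a + b) = 0 := by
          simp only [H_add_left, H_add_right hF, hs, hba', hab']; ring
        have i2 : H (a + t • b) (a + t • b) = 0 := by
          simp only [H_add_left, H_add_right hF, H_smul_left, H_smul_right, hs, hba', hab']
          linear_combination (-(H a a)) * ht'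
        have e : a = (t / (t - 1)) • (a + b) - (1 / (t - 1)) • (a + t • b) := by
          funext i
          simp only [Pi.sub_apply, Pi.smul_apply, Pi.add_apply, smul_eq_mul]
          field_simp [sub_ne_zero.2 ht1]
          ring
        have hne : H (g.1.1 *ᵥ (a + b)) (g.1.1 *ᵥ (a + t • b)) ≠ 0 := by
          rw [SU_H]
          simp only [H_add_left, H_add_right hF, H_smul_left, H_smul_right, hs, hba', hab']
          intro h0
          have h1 : H a a * (1 - t ^ q) = 0 := by linear_combination h0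
          have htq : t ^ q = 1 := (sub_eq_zero.1 ((mul_eq_zero.1 h1).resolve_left hi)).symm
          rw [htq, mul_one] at ht'
          exact ht1 ht'
        rcases split _ (C_map hg (hCW' _ (W'.add_mem ha hbW) i1)) with h1 | h1 <;>
          rcases split _ (C_map hg (hCW' _ (W'.add_mem ha (W'.smul_mem t hbW)) i2)) with h2 | h2
        · refine Or.inl ?_
          rw [e, Matrix.mulVec_sub, Matrix.mulVec_smul, Matrix.mulVec_smul]
          exact W.sub_mem (W.smul_mem _ h1) (W.smul_mem _ h2)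
        · exact absurd (perp' h2 h1) hne
        · exact absurd (perp h1 h2) hne
        · refine Or.inr ?_
          rw [e, Matrix.mulVec_sub, Matrix.mulVec_smul, Matrix.mulVec_smul]
          exact W'.sub_mem (W'.smul_mem _ h1) (W'.smul_mem _ h2)
    have hor : (∀ a ∈ W', g.1.1 *ᵥ a ∈ W) ∨ ∀ a ∈ W', g.1.1 *ᵥ a ∈ W' := by
      by_contra hc
      rw [not_or] at hc
      simp only [not_forall] at hc
      obtain ⟨⟨x, hx, hxn⟩, y, hy, hyn⟩ := hc
      have hxp := (himg x hx).resolve_left hxn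
      have hyp := (himg y hy).resolve_right hyn
      rcases himg (x + y) (W'.add_mem hx hy) with h1 | h1
      · rw [Matrix.mulVec_add] at h1; exact hxn ((W.add_mem_iff_left hyp).1 h1)
      · rw [Matrix.mulVec_add] at h1; exact hyn ((W'.add_mem_iff_right hxp).1 h1)
    rcases hor with h1 | h1
    · have hinj : Function.Injective (((g.1.1.mulVecLin.comp W'.subtype)).codRestrict W (fun x => h1 x.1 x.2)) := fun x y e => by
        refine Subtype.ext ?_
        have h2 : g.1.1 *ᵥ x.1 = g.1.1 *ᵥ y.1 := congrArg Subtype.val e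
        have h3 := congrArg (fun z => (g⁻¹).1.1 *ᵥ z) h2
        simp only [su_inv_cancel] at h3
        exact h3
      have := LinearMap.finrank_le_finrank_of_injective hinj
      omega
    · refine hgW fun w hw => hWp fun a ha => ?_
      let f : W' → W' := fun x => ⟨g.1.1 *ᵥ x.1, h1 x.1 x.2⟩
      have hf : Function.Injective f := fun x y e => by
        refine Subtype.ext ?_
        have h3 := congrArg (fun z : W' => (g⁻¹).1.1 *ᵥ z.1) e
        simp only [f, su_inv_cancel] at h3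
        exact h3
      obtain ⟨x, hx⟩ := (Finite.injective_iff_surjective.1 hf) ⟨a, ha⟩
      rw [← show g.1.1 *ᵥ x.1 = a from congrArg Subtype.val hx, SU_H]
      exact perp' x.2 hw
  -- one with anisotropic components
  obtain ⟨x0, x1, hx0, hx00, hx1, hCx⟩ :
      ∃ x0 x1, x0 ∈ W ∧ H x0 x0 ≠ 0 ∧ x1 ∈ W' ∧ C N (x0 + x1) := by
    by_cases hi : H w0 w0 = 0
    swap
    · exact ⟨w0, u0, hw0, hi, hu0, hC0⟩
    have hiu : H u0 u0 = 0 := by
      have := hC0.1
      simp only [H_add_left, H_add_right hF, perp hu0 hw0, perp' hu0 hw0, hi] at this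
      linear_combination this
    obtain ⟨z, hz, hzw⟩ := hW w0 hw0 hw00
    obtain ⟨p, hp, hpp, hpu⟩ : ∃ p ∈ W, H p p = 0 ∧ H w0 p ≠ 0 := by
      obtain ⟨t, ht⟩ := exists_trace_one hF
      refine ⟨z + (-(H z z) * t / H w0 z) • w0, W.add_mem hz (W.smul_mem _ hw0), ?_, ?_⟩
      · have e1 : -(H z z) * t / H w0 z * H w0 z = -(H z z) * t := div_mul_cancel₀ _ hzw
        have e2 : (-(H z z) * t / H w0 z) ^ q * H z w0 = -(H z z) * t ^ q := by
          rw [← H_conj hF w0 z, ← mul_pow, e1, mul_pow, neg_pow_q hF, H_self_fixed hF]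
        simp only [H_add_left, H_add_right hF, H_smul_left, H_smul_right, hi]
        linear_combination e1 + e2 - (H z z) * ht
      · rw [H_add_right hF, H_smul_right, hi, mul_zero, add_zero]; exact hzw
    obtain ⟨v, hv, hvv, hvu, -⟩ : ∃ v ∈ W', H v v ≠ 0 ∧ H u0 v ≠ 0 ∧ True := by
      obtain ⟨b, hb⟩ : ∃ b ∈ W', H u0 b ≠ 0 := by
        obtain ⟨x, hx⟩ : ∃ x, H x u0 ≠ 0 := by
          by_contra hc; simp only [not_exists, not_not] at hc; exact hu00 (vec_eq_zero hF hc)
        obtain ⟨w, hw, hd⟩ := hdec x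
        refine ⟨x - w, hd, fun h0 => hx ?_⟩
        rw [← add_sub_cancel w x, H_add_left, perp' hu0 hw, orth_symm hF h0, add_zero]
      by_cases hbb : H b b = 0
      · obtain ⟨e, he, hee, heu, heb⟩ := anp u0 b
        refine ⟨b + e, W'.add_mem hb.1 he, ?_, ?_, trivial⟩
        · simp only [H_add_left, H_add_right hF, hbb, heb, orth_symm hF heb, zero_add, add_zero]; exact hee
        · rw [H_add_right hF, orth_symm hF heu, add_zero]; exact hb.2
      · exact ⟨b, hb.1, hbb, hb.2, trivial⟩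
    obtain ⟨d, hd, hdq⟩ := exists_anti hF
    obtain ⟨T0, -, hT0⟩ := exists_tv hF hpp hdq
    obtain ⟨t, ht, ht1, -⟩ := exists_unit_ne_one hF
    have ht' : t * t ^ q = 1 := by rw [← pow_succ', ht]
    set a := (t - 1) / H v v with ha
    obtain ⟨G, hG, hGx, -⟩ := qrefl hF hv (a := a) (by
      rw [ha, div_pow, sub_pow_q hF, one_pow, H_self_fixed hF]
      field_simp
      linear_combination ht')
    obtain ⟨e, he, hee, heu, hev⟩ := anp u0 v
    obtain ⟨r, hr, hrfix, h, hh⟩ := fix_det hF G (S := W') he hee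
    have hhN : h ∈ N := stb_of_sup (r * G) h hh fun w hw => by
      rw [mulVec_mul, hG.2 w fun s hs => perp' hs hw, hr.2 w fun s hs => perp' hs hw]; exact hw
    have hGu : h.1.1 *ᵥ u0 = u0 + (a * H u0 v) • v := by
      rw [hh, mulVec_mul, hGx, hrfix]
      rw [H_add_left, H_smul_left, orth_symm hF heu, orth_symm hF hev, mul_zero, add_zero]
    have hGw : h.1.1 *ᵥ w0 = w0 := by
      rw [hh, mulVec_mul, hG.2 w0 fun s hs => perp' hs hw0, hr.2 w0 fun s hs => perp' hs hw0]
    have hTN : T0 ∈ N := (hCW p hp hpp).2 _ ⟨d, hT0⟩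
    have hTu : T0.1.1 *ᵥ u0 = u0 := by rw [hT0, perp hu0 hp, mul_zero, zero_smul, add_zero]
    -- the second vector
    set y0 := w0 + (d * H w0 p) • p with hy0
    set y1 := u0 + (a * H u0 v) • v with hy1
    have hY : C N (y0 + y1) := by
      have h1 := C_map hhN (C_map hTN hC0)
      have hy0W : y0 ∈ W := W.add_mem hw0 (W.smul_mem _ hp)
      rw [Matrix.mulVec_add, hTu, hT0, Matrix.mulVec_add, hGu, Matrix.mulVec_add, hGw, Matrix.mulVec_smul] at h1
      have hGp : h.1.1 *ᵥ p = p := by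
        rw [hh, mulVec_mul, hG.2 p fun s hs => perp' hs hp, hr.2 p fun s hs => perp' hs hp]
      rw [hGp] at h1
      exact h1
    have hy0W : y0 ∈ W := W.add_mem hw0 (W.smul_mem _ hp)
    have hy1W : y1 ∈ W' := W'.add_mem hu0 (W'.smul_mem _ hv)
    obtain ⟨T, -, hT⟩ := exists_tv hF hC0.1 hdq
    have hTX : T ∈ N := hC0.2 _ ⟨d, hT⟩
    have h1 := C_map hTX hY
    rw [hT] at h1
    set K := d * H (y0 + y1) (w0 + u0) with hK
    refine ⟨y0 + K • w0, y1 + K • u0, W.add_mem hy0W (W.smul_mem _ hw0), ?_, W'.add_mem hy1W (W'.smul_mem _ hu0), ?_⟩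
    · have h0 : H y0 w0 = -(d * (H w0 p * H w0 p ^ q)) + 2 * (d * (H w0 p * H w0 p ^ q)) := by
        rw [hy0, H_add_left, H_smul_left, hi, ← H_conj hF w0 p]; ring
      have h10 : H y1 u0 = a * (H u0 v * H u0 v ^ q) := by
        rw [hy1, H_add_left, H_smul_left, hiu, ← H_conj hF u0 v]; ring
      have hKe : K = d * (H y0 w0 + H y1 u0) := by
        rw [hK]
        simp only [H_add_left, H_add_right hF, perp hy1W hw0, perp' hu0 hy0W]
        ring
      have hyy : H y0 y0 = 0 := by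
        rw [hy0]
        simp only [H_add_left, H_add_right hF, H_smul_left, H_smul_right, hi, hpp, mul_pow, hdq, H_conj hF w0 p]
        rw [← H_conj hF w0 p]
        ring
      obtain ⟨P, hP⟩ : ∃ P, P = H w0 p * H w0 p ^ q := ⟨_, rfl⟩
      obtain ⟨Q, hQ⟩ : ∃ Q, Q = H u0 v * H u0 v ^ q := ⟨_, rfl⟩
      rw [← hP] at h0
      rw [← hQ] at h10
      have hPq : P ^ q = P := by rw [hP, mul_pow, pow_q_q hF, mul_comm]
      have hQq : Q ^ q = Q := by rw [hQ, mul_pow, pow_q_q hF, mul_comm]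
      have hP0 : P ≠ 0 := hP ▸ mul_ne_zero hpu (pow_ne_zero _ hpu)
      have hQ0 : Q ≠ 0 := hQ ▸ mul_ne_zero hvu (pow_ne_zero _ hvu)
      have hh0 : H y0 w0 = d * P := by rw [h0]; ring
      have hw0y : H w0 y0 = -(d * P) := by rw [← H_conj hF, hh0, mul_pow, hdq, hPq, neg_mul]
      simp only [H_add_left, H_add_right hF, H_smul_left, H_smul_right, hyy, hi, hh0, hw0y]
      rw [hKe, hh0, h10, mul_pow, add_pow_q hF, mul_pow, mul_pow, hdq, hPq, hQq]
      intro hzero
      have h3 : (d * d) * P * Q * (a + a ^ q) = 0 := by linear_combination -hzero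
      have h4 : a + a ^ q = 0 := (mul_eq_zero.1 h3).resolve_left
        (mul_ne_zero (mul_ne_zero (mul_ne_zero hd hd) hP0) hQ0)
      rw [ha, div_pow, sub_pow_q hF, one_pow, H_self_fixed hF, ← add_div, div_eq_zero_iff] at h4
      have h5 := h4.resolve_right hvv
      have h6 : (t - 1) * (t - 1) = 0 := by linear_combination t * h5 - ht'
      exact ht1 (sub_eq_zero.1 (mul_self_eq_zero.1 h6))
    · rwa [show y0 + K • w0 + (y1 + K • u0) = y0 + y1 + K • (w0 + u0) by module]
  -- all vectors with anisotropic components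
  have three : ∀ w u, w ∈ W → u ∈ W' → H w w ≠ 0 → H (w + u) (w + u) = 0 → C N (w + u) := by
    intro w u hw hu hww hiso
    obtain ⟨a, ha⟩ := scale (c := H w w) hx00 hww (H_self_fixed hF w)
    have hax : C N (a • x0 + a • x1) := by rw [← smul_add]; exact C_smul hCx a
    have e1 : H u u = -H w w := by
      simp only [H_add_left, H_add_right hF, perp hu hw, perp' hu hw] at hiso
      linear_combination hiso
    have e2 : H (a • x1) (a • x1) = -H w w := by
      have h := hax.1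
      simp only [H_add_left, H_add_right hF, perp (W'.smul_mem a hx1) (W.smul_mem a hx0),
        perp' (W'.smul_mem a hx1) (W.smul_mem a hx0), ha] at h
      linear_combination h
    obtain ⟨g1, hg1, hg1x⟩ := move hF (W.smul_mem a hx0) hw ha (by rw [ha]; exact hww)
    obtain ⟨g2, hg2, hg2x⟩ := move hF (W'.smul_mem a hx1) hu (by rw [e1, e2]) (by rw [e2]; exact neg_ne_zero.2 hww)
    obtain ⟨e, he, hee, heu, -⟩ := anp u u
    obtain ⟨r, hr, hrfix, h, hh⟩ := fix_det hF (g2 * g1) (S := W') he hee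
    have fixW : ∀ w ∈ W, (r * (g2 * g1)).1.1 *ᵥ w = g1.1.1 *ᵥ w := fun w hw => by
      have h1 := supW hg1 w hw
      rw [mulVec_mul, mulVec_mul, hg2.2 _ fun s hs => perp' hs h1, hr.2 _ fun s hs => perp' hs h1]
    have hhN : h ∈ N := stb_of_sup (r * (g2 * g1)) h hh fun w hw => by rw [fixW w hw]; exact supW hg1 w hw
    have hfinal := C_map hhN hax
    rw [Matrix.mulVec_add, hh, fixW _ (W.smul_mem a hx0), hg1x, mulVec_mul, mulVec_mul,
      hg1.2 (a • x1) (fun s hs => perp (W'.smul_mem a hx1) hs), hg2x, hrfix u (orth_symm hF heu)] at hfinal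
    exact hfinal
  refine top_of_C hF (by omega) fun y hy => ?_
  obtain ⟨w, hw, hu⟩ := hdec y
  set u := y - w with hudef
  rw [show y = w + u by rw [hudef]; abel] at hy ⊢
  by_cases hww : H w w = 0
  swap
  · exact three w u hw hu hww hy
  by_cases hw0' : w = 0
  · rw [hw0', zero_add] at hy ⊢; exact hCW' u hu hy
  obtain ⟨z, hz, hzw⟩ := hW w hw hw0'
  obtain ⟨X0, hX0, hwX, hX00⟩ : ∃ X0 ∈ W, H w X0 = 1 ∧ H X0 X0 = 1 := by
    obtain ⟨t, ht⟩ := exists_trace_one hF
    set p := ((H w z)⁻¹) ^ q • z with hp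
    have hwp : H w p = 1 := by rw [hp, H_smul_right, pow_q_q hF, inv_mul_cancel₀ hzw]
    have hpw : H p w = 1 := by rw [← H_conj hF, hwp, one_pow]
    refine ⟨p + ((1 - H p p) * t) • w, W.add_mem (W.smul_mem _ hz) (W.smul_mem _ hw), ?_, ?_⟩
    · rw [H_add_right hF, hwp, H_smul_right, hww, mul_zero, add_zero]
    · simp only [H_add_left, H_add_right hF, H_smul_left, H_smul_right, hwp, hpw, hww, mul_pow, sub_pow_q hF, one_pow,
        H_self_fixed hF]
      linear_combination (1 - H p p) * ht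
  obtain ⟨e, he, hee, heu, -⟩ := anp u u
  obtain ⟨s, hs⟩ := scale hee (neg_ne_zero.2 one_ne_zero) (by rw [neg_pow_q hF, one_pow])
  set X1 := s • e with hX1
  have hX1W : X1 ∈ W' := W'.smul_mem s he
  have huX1 : H u X1 = 0 := by rw [hX1, H_smul_right, orth_symm hF heu, mul_zero]
  set X := X0 + X1 with hX
  have hXX : H X X = 0 := by
    simp only [hX, H_add_left, H_add_right hF, perp hX1W hX0, perp' hX1W hX0, hX00, hs]; ring
  have hCX : C N X := three X0 X1 hX0 hX1W (by rw [hX00]; exact one_ne_zero) hXX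
  have hyX : H (w + u) X = 1 := by
    simp only [hX, H_add_left, H_add_right hF, hwX, perp' hX1W hw, perp hu hX0, huX1]; ring
  obtain ⟨d, hd, hdq⟩ := exists_anti hF
  obtain ⟨T, -, hT⟩ := exists_tv hF hXX hdq
  have hTN : T ∈ N := hCX.2 _ ⟨d, hT⟩
  set Z := w + u - d • X with hZ
  have hZe : Z = (w - d • X0) + (u - d • X1) := by rw [hZ, hX]; module
  have hXy : H X (w + u) = 1 := by rw [← H_conj hF, hyX, one_pow]
  have hZZ : H Z Z = 0 := by
    simp only [hZ, H_sub_left, H_sub_right hF, H_smul_left, H_smul_right, hy, hyX, hXy, hXX]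
    rw [hdq]; ring
  have hX0w : H X0 w = 1 := by rw [← H_conj hF, hwX, one_pow]
  have hCZ : C N Z := by
    rw [hZe]
    refine three _ _ (W.sub_mem hw (W.smul_mem _ hX0)) (W'.sub_mem hu (W'.smul_mem _ hX1W)) ?_ (by rw [← hZe]; exact hZZ)
    simp only [H_sub_left, H_sub_right hF, H_smul_left, H_smul_right, hww, hwX, hX0w, hX00]
    rw [hdq]
    intro h0
    exact mul_ne_zero hd hd (by linear_combination -h0)
  have := C_map hTN hCZ
  rw [hT, hZ, H_sub_left, H_smul_left, hyX, hXX, mul_zero, sub_zero, mul_one, sub_add_cancel] at this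
  exact this

/-- Translation to subgroups of the general linear group. -/
theorem maximal {W : Submodule F (Fin n → F)} (hmove : ∃ A : Cfsg.SU n F q, ¬ Stb W A)
    (h : ∀ N : Subgroup (Cfsg.SU n F q), (∀ A, Stb W A → A ∈ N) → ∀ g ∈ N, ¬ Stb W g → N = ⊤) :
    Cfsg.Geo.IsMaximalIn (Cfsg.GU n F q ⊓ Cfsg.Geo.specialLinear (Fin n) F)
      (Cfsg.Geo.subspaceStabilizer W ⊓ (Cfsg.GU n F q ⊓ Cfsg.Geo.specialLinear (Fin n) F)) := by
  classical
  let e : Cfsg.SU n F q →* GL (Fin n) F := Matrix.SpecialLinearGroup.toGL.comp (Cfsg.SU n F q).subtype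
  have heK : ∀ A, e A ∈ Cfsg.GU n F q ⊓ Cfsg.Geo.specialLinear (Fin n) F := fun A =>
    ⟨A.2, MonoidHom.mem_ker.2 (Units.ext A.1.2)⟩
  have hsur : ∀ x ∈ Cfsg.GU n F q ⊓ Cfsg.Geo.specialLinear (Fin n) F, ∃ A, e A = x := fun x hx =>
    ⟨⟨⟨x.1, congrArg Units.val (MonoidHom.mem_ker.1 hx.2)⟩, hx.1⟩, Units.ext rfl⟩
  have hmem : ∀ A : Cfsg.SU n F q, e A ∈ Cfsg.Geo.subspaceStabilizer W ↔ Stb W A := fun A => by
    refine ⟨fun hA w hw => (hA w).1 hw, fun hA v => ⟨hA v, fun hv => ?_⟩⟩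
    let f : W → W := fun w => ⟨A.1.1 *ᵥ w.1, hA w.1 w.2⟩
    have hf : Function.Injective f := fun a b he => by
      refine Subtype.ext ?_
      have h2 := congrArg (fun z : W => (A⁻¹).1.1 *ᵥ z.1) he
      simp only [f, su_inv_cancel] at h2
      exact h2
    obtain ⟨w, hw⟩ := (Finite.injective_iff_surjective.1 hf) ⟨_, hv⟩
    have h1 : A.1.1 *ᵥ w.1 = A.1.1 *ᵥ v := congrArg Subtype.val hw
    have h2 := congrArg (fun z => (A⁻¹).1.1 *ᵥ z) h1
    simp only [su_inv_cancel] at h2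
    rw [← h2]; exact w.2
  refine ⟨lt_of_le_of_ne inf_le_right fun heq => ?_, fun M hM hMK => or_iff_not_imp_left.2 fun hne => ?_⟩
  · obtain ⟨A, hA⟩ := hmove
    exact hA ((hmem A).1 (heq.ge (heK A)).1)
  · obtain ⟨g, hgM, hgH⟩ := SetLike.exists_of_lt (lt_of_le_of_ne hM (Ne.symm hne))
    obtain ⟨G, rfl⟩ := hsur g (hMK hgM)
    have htop := h (M.comap e) (fun A hA => hM ⟨(hmem A).2 hA, heK A⟩) G hgM (fun hs => hgH ⟨(hmem G).2 hs, heK G⟩)
    refine le_antisymm hMK fun x hx => ?_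
    obtain ⟨X, rfl⟩ := hsur x hx
    exact Subgroup.mem_comap.1 (htop ▸ Subgroup.mem_top X)

end CfsgLib.MaxSub.SUStab
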