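import Mathlib
import Cfsg.Agent.Lib.MaxSub.SUStab

/-!
Stabilisers of totally singular subspaces in special unitary groups are maximal.
-/

set_option autoImplicit false
open scoped Matrix

namespace CfsgLib.MaxSub.SUSingular

open CfsgLib.Unitary.FieldNorm CfsgLib.Unitary.Basic CfsgLib.Unitary.Order CfsgLib.Unitary.Isotropic CfsgLib.Unitary.Siegel
open CfsgLib.Unitary.Generation CfsgLib.Unitary.GenerationMain CfsgLib.MaxSub.SUTools CfsgLib.MaxSub.SUStab

variable {F : Type*} [Field F] [Fintype F] {q n : ℕ}

local notation "H" => Cfsg.hermForm n F q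

theorem orth_orth (hF : Fintype.card F = q ^ 2) (W : Submodule F (Fin n → F)) :
    orth q ((orth q (W : Set (Fin n → F))) : Set (Fin n → F)) = W := by
  have h1 := orth_dim hF W
  have h2 := orth_dim hF (orth q (W : Set (Fin n → F)))
  have hle : W ≤ orth q ((orth q (W : Set (Fin n → F))) : Set (Fin n → F)) := fun w hw s hs => orth_symm hF (hs w hw)
  exact (Submodule.eq_of_le_of_finrank_le hle (by omega)).symm

theorem singular_top (hF : Fintype.card F = q ^ 2) (hn : 4 ≤ n) {W : Submodule F (Fin n → F)}
    (hW : ∀ u ∈ W, ∀ v ∈ W, H u v = 0) (N : Subgroup (Cfsg.SU n F q))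
    (hN : ∀ A, Stb W A → A ∈ N) {g : Cfsg.SU n F q} (hg : g ∈ N) (hgW : ¬ Stb W g) : N = ⊤ := by
  classical
  have hq0 := q_ne_zero hF
  obtain ⟨W', hW'⟩ : ∃ W', W' = orth q (W : Set (Fin n → F)) := ⟨_, rfl⟩
  have hmem : ∀ {x}, x ∈ W' ↔ ∀ w ∈ W, H x w = 0 := fun {x} => by rw [hW']; rfl
  have hWW : W ≤ W' := fun w hw => hmem.2 fun u hu => hW w hw u hu
  have hperp : ∀ v ∈ W', H v v = 0 → C N v := fun v hv hi =>
    ⟨hi, fun t ⟨c, ht⟩ => hN _ (tv_fix ht (Or.inr fun w hw => orth_symm hF (hmem.1 hv w hw)))⟩
  have hback : ∀ x, (∀ a ∈ W', H x a = 0) → x ∈ W := fun x h => by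
    rw [← orth_orth hF W, ← hW']; exact h
  obtain ⟨v0, hv0C, hv0⟩ : ∃ v, C N v ∧ v ∉ W' := by
    by_contra h
    simp only [not_exists, not_and, not_not] at h
    have hiso : ∀ a ∈ W', H a a = 0 → g.1.1 *ᵥ a ∈ W' := fun a ha hi => h _ (C_map hg (hperp a ha hi))
    by_cases hpartner : ∀ a ∈ W', H a a ≠ 0 → ∃ b ∈ W', H b b ≠ 0 ∧ H b a = 0
    · have hall : ∀ a ∈ W', g.1.1 *ᵥ a ∈ W' := by
        intro a ha
        by_cases hi : H a a = 0
        · exact hiso a ha hi
        obtain ⟨b0, hb0, hbb, hba⟩ := hpartner a ha hi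
        obtain ⟨s, hs⟩ := exists_norm hF (c := -H a a / H b0 b0) (div_ne_zero (neg_ne_zero.2 hi) hbb)
          (by rw [div_pow, neg_pow_q hF, H_self_fixed hF, H_self_fixed hF])
        obtain ⟨t, ht, ht1, -⟩ := exists_unit_ne_one hF
        have ht' : t * t ^ q = 1 := by rw [← pow_succ', ht]
        set b := s • b0 with hb
        have hbW : b ∈ W' := W'.smul_mem s hb0
        have hbb' : H b b = -H a a := by
          rw [hb, H_smul_left, H_smul_right, ← mul_assoc, ← pow_succ', hs, div_mul_cancel₀ _ hbb]
        have hba' : H b a = 0 := by rw [hb, H_smul_left, hba, mul_zero]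
        have hab' : H a b = 0 := orth_symm hF hba'
        have i1 : H (a + b) (a + b) = 0 := by
          simp only [H_add_left, H_add_right hF, hbb', hba', hab']; ring
        have i2 : H (a + t • b) (a + t • b) = 0 := by
          simp only [H_add_left, H_add_right hF, H_smul_left, H_smul_right, hbb', hba', hab']
          linear_combination (-(H a a)) * ht'
        have e : a = (t / (t - 1)) • (a + b) - (1 / (t - 1)) • (a + t • b) := by
          funext i
          simp only [Pi.sub_apply, Pi.smul_apply, Pi.add_apply, smul_eq_mul]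
          field_simp [sub_ne_zero.2 ht1]
          ring
        rw [e, Matrix.mulVec_sub, Matrix.mulVec_smul, Matrix.mulVec_smul]
        exact W'.sub_mem (W'.smul_mem _ (hiso _ (W'.add_mem ha hbW) i1))
          (W'.smul_mem _ (hiso _ (W'.add_mem ha (W'.smul_mem t hbW)) i2))
      refine hgW fun w hw => hback _ fun a ha => ?_
      let f : W' → W' := fun x => ⟨g.1.1 *ᵥ x.1, hall x.1 x.2⟩
      have hf : Function.Injective f := fun x y e => by
        refine Subtype.ext ?_
        have h3 := congrArg (fun z : W' => (g⁻¹).1.1 *ᵥ z.1) e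
        simp only [f, su_inv_cancel] at h3
        exact h3
      obtain ⟨x, hx⟩ := (Finite.injective_iff_surjective.1 hf) ⟨a, ha⟩
      rw [← show g.1.1 *ᵥ x.1 = a from congrArg Subtype.val hx, SU_H]
      exact orth_symm hF (hmem.1 x.2 w hw)
    · simp only [not_forall, not_exists, not_and, not_not] at hpartner
      obtain ⟨a, ha, haa, hb⟩ := hpartner
      refine hgW fun w hw => hback _ fun y hy => ?_
      set x := g.1.1 *ᵥ w with hx
      have hxW : x ∈ W' := hiso w (hWW hw) (hW w hw w hw)
      have hxx : H x x = 0 := by rw [hx, SU_H]; exact hW w hw w hw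
      have proj : ∀ z ∈ W', H (z - (H z a / H a a) • a) a = 0 := fun z _ => by
        rw [H_sub_left, H_smul_left, div_mul_cancel₀ _ haa, sub_self]
      have hnull : ∀ z ∈ W', H z a = 0 → H z z = 0 := fun z hz hza => by
        by_contra hne; exact hb z hz hne hza
      have hxa : H x a = 0 := by
        set l := H x a / H a a with hl
        set r := x - l • a with hr
        have hra : H r a = 0 := proj x hxW
        have har : H a r = 0 := orth_symm hF hra
        have hrr := hnull r (W'.sub_mem hxW (W'.smul_mem _ ha)) hra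
        have hxe : x = r + l • a := by rw [hr]; abel
        have h2 : l * l ^ q * H a a = 0 := by
          rw [hxe] at hxx
          simp only [H_add_left, H_add_right hF, H_smul_left, H_smul_right, hra, har, hrr] at hxx
          linear_combination hxx
        have hl0 : l = 0 := by
          rcases mul_eq_zero.1 ((mul_eq_zero.1 h2).resolve_right haa) with e | e
          · exact e
          · exact eq_zero_of_pow_eq_zero e
        rw [hxe, hl0, zero_smul, add_zero]; exact hra
      set r := y - (H y a / H a a) • a with hr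
      have hra : H r a = 0 := proj y hy
      have hrW : r ∈ W' := W'.sub_mem hy (W'.smul_mem _ ha)
      have hxr : H x r = 0 := by
        by_contra hne
        obtain ⟨e, he, hee⟩ := aniso_of_ne hF
          (S := W' ⊓ orth q ({a} : Set (Fin n → F))) (a := x) (b := r)
          ⟨hxW, fun s hs => by rw [Set.mem_singleton_iff] at hs; rw [hs]; exact hxa⟩
          ⟨hrW, fun s hs => by rw [Set.mem_singleton_iff] at hs; rw [hs]; exact hra⟩ hne
        exact hee (hnull e he.1 (he.2 a rfl))
      rw [show y = r + (H y a / H a a) • a by rw [hr]; abel, H_add_right hF, H_smul_right, hxr, hxa, mul_zero, add_zero]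
  have orbit : ∀ u ∈ W, ∀ b d, C N b → H b u ≠ 0 → H d d = 0 → H d u ≠ 0 → C N d := by
    intro u hu b d hb hbu hd hdu
    set b' := (H b u)⁻¹ • b with hb'
    set d' := (H d u)⁻¹ • d with hd'
    have hbC : C N b' := C_smul hb _
    have hbu' : H b' u = 1 := by rw [hb', H_smul_left, inv_mul_cancel₀ hbu]
    have hdu' : H d' u = 1 := by rw [hd', H_smul_left, inv_mul_cancel₀ hdu]
    have hdd' : H d' d' = 0 := by rw [hd', H_smul_left, H_smul_right, hd, mul_zero, mul_zero]
    have huu := hW u hu u hu
    have hub : H u b' = 1 := by rw [← H_conj hF, hbu', one_pow]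
    set α := H d' b' with hα
    set w := d' - b' - α • u with hw
    have hwu : H w u = 0 := by rw [hw, H_sub_left, H_sub_left, hdu', hbu', H_smul_left α u u, huu]; ring
    have hwb : H w b' = 0 := by rw [hw, H_sub_left, H_sub_left, hbC.1, H_smul_left α u b', hub, hα]; ring
    have huw : H u w = 0 := orth_symm hF hwu
    have hbw : H b' w = 0 := orth_symm hF hwb
    have hde : d' = b' + w + α • u := by rw [hw]; abel
    have hcond : α + α ^ q + H w w = 0 := by
      rw [hde] at hdd'
      simp only [H_add_left, H_add_right hF, H_smul_left α u, H_smul_right α _ u, hbC.1, huu, hub, hbu', hwu, hwb, huw, hbw] at hdd'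
      linear_combination hdd'
    obtain ⟨s, hs⟩ := exists_elt hF huu hwu hcond
    have hsN : s ∈ N := hN s fun x hx => by
      rw [hs, E_mulVec, hW x hx u hu, zero_smul, add_zero]
      exact W.add_mem hx (W.smul_mem _ hu)
    have h1 := C_smul (C_map hsN hbC) (H d u)
    rw [hs, E_mulVec, hbu', hbw, one_smul, mul_one, sub_zero, ← hde, hd', smul_smul, mul_inv_cancel₀ hdu, one_smul] at h1
    exact h1
  refine top_of_C hF hn fun y hy => ?_
  by_cases hyW : y ∈ W'
  · exact hperp y hyW hy
  obtain ⟨u0, hu0, h0⟩ : ∃ u ∈ W, H v0 u ≠ 0 := by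
    by_contra h; simp only [not_exists, not_and, not_not] at h; exact hv0 (hmem.2 h)
  obtain ⟨u1, hu1, h1⟩ : ∃ u ∈ W, H y u ≠ 0 := by
    by_contra h; simp only [not_exists, not_and, not_not] at h; exact hyW (hmem.2 h)
  by_cases h2 : H y u0 = 0
  · by_cases h3 : H v0 u1 = 0
    · refine orbit (u0 + u1) (W.add_mem hu0 hu1) v0 y hv0C ?_ hy ?_
      · rw [H_add_right hF, h3, add_zero]; exact h0
      · rw [H_add_right hF, h2, zero_add]; exact h1
    · exact orbit u1 hu1 v0 y hv0C h3 hy h1
  · exact orbit u0 hu0 v0 y hv0C h0 hy h2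

end CfsgLib.MaxSub.SUSingular
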