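import Mathlib
import Cfsg.Prelude.Def_GeometricClasses
import Cfsg.Agent.Lib.Symplectic.Simple
import Cfsg.Agent.Lib.Forms.WittAlt
import Cfsg.Agent.Lib.Symplectic.IsoTuples

/-!
Stabilisers of subspaces in symplectic groups are maximal (transvection centre argument).
-/

set_option autoImplicit false
open scoped Matrix

namespace CfsgLib.MaxSub.SpStab

open CfsgLib.Symplectic.Basic

variable {F : Type*} [Field F] [Fintype F] {m : ℕ}

/-- Stabilising a subspace. -/
def Stb (W : Submodule F (V m F)) (A : Sp m F) : Prop := ∀ w ∈ W, A.1 *ᵥ w ∈ W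

/-- Transvection centres of a subgroup. -/
def C (N : Subgroup (Sp m F)) (v : V m F) : Prop := ∀ c, T v c ∈ N

theorem mulVec_inj (A : Sp m F) {x y : V m F} (h : A.1 *ᵥ x = A.1 *ᵥ y) : x = y := by
  have := congrArg (fun z => (A⁻¹).1 *ᵥ z) h
  simp only [mulVec_inv_cancel] at this
  exact this

theorem C_map {N : Subgroup (Sp m F)} {g : Sp m F} (hg : g ∈ N) {v : V m F} (hv : C N v) : C N (g.1 *ᵥ v) := fun c => by
  rw [← conj_T g v c]; exact mul_mem (mul_mem hg (hv c)) (inv_mem hg)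

theorem C_smul {N : Subgroup (Sp m F)} {v : V m F} (hv : C N v) (a : F) : C N (a • v) := fun c => by
  rw [T_smul]; exact hv _

theorem top_of_C {N : Subgroup (Sp m F)} (h : ∀ v, C N v) : N = ⊤ := by
  rw [eq_top_iff, ← closure_T_eq_top]
  exact (Subgroup.closure_le _).2 (by rintro _ ⟨w, c, rfl⟩; exact h w c)

theorem exists_dual (f : V m F →ₗ[F] F) : ∃ a, ∀ z, B z a = f z :=
  CfsgLib.Forms.WittAlt.exists_vec (B (F := F) (m := m)) CfsgLib.Symplectic.IsoTuples.B_nondeg f

theorem orth_orth {W : Submodule F (V m F)} {x : V m F} (h : ∀ a ∈ orth (W : Set (V m F)), B x a = 0) : x ∈ W := by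
  by_contra hx
  obtain ⟨f, hf, hfW⟩ := Submodule.exists_dual_map_eq_bot_of_notMem hx inferInstance
  obtain ⟨a, ha⟩ := exists_dual f
  refine hf ?_
  rw [← ha]
  refine h a fun s hs => ?_
  rw [ha]
  have : f s ∈ W.map f := ⟨s, hs, rfl⟩
  rw [hfW] at this
  exact (Submodule.mem_bot F).1 this

/-- Totally singular subspaces. -/
theorem singular_top {W : Submodule F (V m F)} (hW : ∀ u ∈ W, ∀ v ∈ W, B u v = 0) (N : Subgroup (Sp m F))
    (hN : ∀ A, Stb W A → A ∈ N) {g : Sp m F} (hg : g ∈ N) (hgW : ¬ Stb W g) : N = ⊤ := by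
  classical
  set W' := orth (W : Set (V m F)) with hW'
  have hWW : W ≤ W' := fun w hw s hs => hW s hs w hw
  have hperp : ∀ v ∈ W', C N v := fun v hv c => hN _ fun w hw => by rw [T_fix (hv w hw)]; exact hw
  obtain ⟨v0, hv0C, hv0⟩ : ∃ v, C N v ∧ v ∉ W' := by
    by_contra h
    simp only [not_exists, not_and, not_not] at h
    refine hgW fun w hw => ?_
    refine orth_orth fun a ha => ?_
    let f : W' → W' := fun x => ⟨g.1 *ᵥ x.1, h _ (C_map hg (hperp _ x.2))⟩
    have hf : Function.Injective f := fun x y e => Subtype.ext (mulVec_inj g (congrArg Subtype.val e))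
    obtain ⟨x, hx⟩ := (Finite.injective_iff_surjective.1 hf) ⟨a, ha⟩
    rw [← show g.1 *ᵥ x.1 = a from congrArg Subtype.val hx, B_map]
    exact x.2 w hw
  have add : ∀ v u, C N v → v ∉ W' → u ∈ W' → C N (v + u) := by
    intro v u hv hv' hu
    obtain ⟨w, hw, hwv⟩ : ∃ w ∈ W, B w v ≠ 0 := by
      by_contra h; simp only [not_exists, not_and, not_not] at h; exact hv' h
    set u0 := (B v w)⁻¹ • w with hu0
    have hvw : B v w ≠ 0 := by rw [B_swap]; exact neg_ne_zero.2 hwv
    have hu0W : u0 ∈ W := W.smul_mem _ hw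
    have h1 : B v u0 = 1 := by rw [hu0, map_smul, smul_eq_mul, inv_mul_cancel₀ hvw]
    have one : ∀ x z, C N x → z ∈ W' → B x z ≠ 0 → C N (x + z) := fun x z hx hz hne => by
      have := C_map (hperp z hz (B x z)⁻¹) hx
      rwa [T_apply, inv_mul_cancel₀ hne, one_smul] at this
    by_cases h0 : B v u = 0
    · have h2 := one v (u - u0) hv (W'.sub_mem hu (hWW hu0W)) (by rw [map_sub, h0, h1, zero_sub]; simp)
      have h3 := one _ u0 h2 (hWW hu0W) (by
        rw [map_add, LinearMap.add_apply, h1, map_sub, LinearMap.sub_apply, B_self, sub_zero, B_swap,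
          hu u0 hu0W, neg_zero, add_zero]
        exact one_ne_zero)
      rwa [add_assoc, sub_add_cancel] at h3
    · exact one v u hv hu h0
  refine top_of_C fun v => ?_
  by_cases hv : v ∈ W'
  · exact hperp v hv
  obtain ⟨b, hb, hb0⟩ : ∃ b ∈ W, B v0 b ≠ 0 := by
    by_contra h; simp only [not_exists, not_and, not_not] at h
    exact hv0 fun s hs => by rw [B_swap, h s hs, neg_zero]
  set a0 := (B v0 b)⁻¹ • b with ha0def
  have ha0 : a0 ∈ W := W.smul_mem _ hb
  have h00 : B v0 a0 = 1 := by rw [ha0def, map_smul, smul_eq_mul, inv_mul_cancel₀ hb0]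
  by_cases hprop : ∀ a ∈ W, B v0 a = 0 → B v a = 0
  · -- proportional
    set l := B v a0
    have hu : v - l • v0 ∈ W' := fun s hs => by
      have := hprop (s - B v0 s • a0) (W.sub_mem hs (W.smul_mem _ ha0))
        (by rw [map_sub, map_smul, h00, smul_eq_mul, mul_one, sub_self])
      rw [map_sub, map_smul, smul_eq_mul, sub_eq_zero] at this
      rw [B_swap, map_sub, LinearMap.sub_apply, map_smul, LinearMap.smul_apply, smul_eq_mul, this]
      ring
    have hl : l ≠ 0 := fun h => hv (by rw [h, zero_smul, sub_zero] at hu; exact hu)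
    have := add (l • v0) (v - l • v0) (C_smul hv0C l) (fun h => hv0 ((Submodule.smul_mem_iff W' hl).1 h)) hu
    rwa [add_sub_cancel] at this
  · simp only [not_forall] at hprop
    obtain ⟨b1, hb1, hb10, hb1v⟩ := hprop
    set a1 := (B v b1)⁻¹ • b1 with ha1def
    set a := a0 + (1 - B v a0) • a1 with hadef
    have h10 : B v0 a1 = 0 := by rw [ha1def, map_smul, hb10, smul_zero]
    have h1v : B v a1 = 1 := by rw [ha1def, map_smul, smul_eq_mul, inv_mul_cancel₀ hb1v]
    have ha : a ∈ W := W.add_mem ha0 (W.smul_mem _ (W.smul_mem _ hb1))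
    have hav0 : B v0 a = 1 := by rw [hadef, map_add, map_smul (B v0) (1 - B v a0) a1, h00, h10, smul_zero, add_zero]
    have hav : B v a = 1 := by rw [hadef, map_add, map_smul (B v) (1 - B v a0) a1, h1v, smul_eq_mul, mul_one]; ring
    set z := v - v0 with hz
    have hza : B z a = 0 := by rw [hz, map_sub, LinearMap.sub_apply, hav, hav0, sub_self]
    have haz : B a z = 0 := by rw [B_swap, hza, neg_zero]
    set A := T (a + z) 1 * T a (-1) * T z (-1) with hA
    have hAx : ∀ x, A.1 *ᵥ x = x + B x a • z + B x z • a := fun x => by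
      rw [hA, mulVec_mul, mulVec_mul, T_apply, T_apply, T_apply]
      simp only [map_add, map_smul, LinearMap.add_apply, LinearMap.smul_apply, smul_eq_mul, B_self, hza, haz]
      module
    have hAN : A ∈ N := hN _ fun w hw => by
      rw [hAx, hW w hw a ha, zero_smul, add_zero]
      exact W.add_mem hw (W.smul_mem _ ha)
    have h2 := C_map hAN hv0C
    rw [hAx, hav0, one_smul, hz, add_sub_cancel] at h2
    have h3 := add (v + B v0 z • a) (-(B v0 z • a)) (by rw [hz]; exact h2)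
      (fun h => hv (by have := W'.sub_mem h (W'.smul_mem (B v0 z) (hWW ha)); simpa using this))
      (W'.neg_mem (W'.smul_mem _ (hWW ha)))
    rwa [add_neg_cancel_right] at h3

/-- Nondegenerate subspaces. -/
theorem nondeg_top {W : Submodule F (V m F)} (hW0 : W ≠ ⊥) (hW : ∀ x ∈ W, x ≠ 0 → ∃ z ∈ W, B x z ≠ 0)
    (hdim : Module.finrank F W < m) (N : Subgroup (Sp m F))
    (hN : ∀ A, Stb W A → A ∈ N) {g : Sp m F} (hg : g ∈ N) (hgW : ¬ Stb W g) : N = ⊤ := by
  classical
  set W' := orth (W : Set (V m F)) with hW'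
  have hdec : ∀ x, ∃ w ∈ W, x - w ∈ W' := by
    intro x
    let L : W →ₗ[F] Module.Dual F W :=
      LinearMap.mk₂ F (fun a b => B b.1 a.1) (fun a a' b => by simp) (fun c a b => by simp) (fun a b b' => by simp)
        (fun c a b => by simp)
    have hinj : Function.Injective L := (injective_iff_map_eq_zero L).2 fun a ha => by
      by_contra h0
      obtain ⟨z, hz, hne⟩ := hW a.1 a.2 (fun h => h0 (Subtype.ext h))
      refine hne ?_
      rw [B_swap, show B z a.1 = 0 from LinearMap.congr_fun ha ⟨z, hz⟩, neg_zero]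
    obtain ⟨w, hw⟩ := (LinearMap.injective_iff_surjective_of_finrank_eq_finrank
      (Subspace.dual_finrank_eq).symm).1 hinj
      (LinearMap.comp (LinearMap.flip (B (F := F) (m := m)) x) W.subtype)
    refine ⟨w.1, w.2, fun s hs => ?_⟩
    have : B s w.1 = B s x := LinearMap.congr_fun hw ⟨s, hs⟩
    rw [map_sub, this, sub_self]
  have hint : ∀ x ∈ W, x ∈ W' → x = 0 := fun x hx hx' => by
    by_contra h0
    obtain ⟨z, hz, hne⟩ := hW x hx h0
    exact hne (by rw [B_swap, hx' z hz, neg_zero])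
  have hCW : ∀ v ∈ W, C N v := fun v hv c => hN _ fun w hw => by
    rw [T_apply]; exact W.add_mem hw (W.smul_mem _ hv)
  have hCW' : ∀ v ∈ W', C N v := fun v hv c => hN _ fun w hw => by rw [T_fix (hv w hw)]; exact hw
  have hoo : ∀ z ∈ orth (W' : Set (V m F)), z ∈ W := fun z hz =>
    orth_orth fun a ha => by rw [B_swap, hz a ha, neg_zero]
  have hnW' : NondegOrth (W : Set (V m F)) := fun x hx hx0 => by
    obtain ⟨y, hy⟩ := exists_B_eq_one hx0
    obtain ⟨w, hw, hd⟩ := hdec y
    refine ⟨y - w, hd, ?_⟩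
    have : B x w = 0 := by rw [B_swap, hx w hw, neg_zero]
    rw [map_sub, this, sub_zero, hy]
    exact one_ne_zero
  have hnW : NondegOrth (W' : Set (V m F)) := fun x hx hx0 => by
    obtain ⟨z, hz, hne⟩ := hW x (hoo x hx) hx0
    exact ⟨z, fun s hs => by rw [B_swap, hs z hz, neg_zero], hne⟩
  have hTW : ∀ A ∈ TS (W' : Set (V m F)), A ∈ N := fun A hA => by
    refine (Subgroup.closure_le N).2 ?_ hA
    rintro _ ⟨z, hz, c, rfl⟩
    exact hCW z (hoo z hz) c
  have hTW' : ∀ A ∈ TS (W : Set (V m F)), A ∈ N := fun A hA => by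
    refine (Subgroup.closure_le N).2 ?_ hA
    rintro _ ⟨z, hz, c, rfl⟩
    exact hCW' z hz c
  obtain ⟨w0, u0, hw0, hw00, hu0, hu00, hC0⟩ :
      ∃ w0 u0, w0 ∈ W ∧ w0 ≠ 0 ∧ u0 ∈ W' ∧ u0 ≠ 0 ∧ C N (w0 + u0) := by
    by_contra h
    simp only [not_exists, not_and] at h
    have split : ∀ x, C N x → x ∈ W ∨ x ∈ W' := fun x hx => by
      obtain ⟨w, hw, hd⟩ := hdec x
      by_cases h1 : w = 0
      · rw [h1, sub_zero] at hd; exact Or.inr hd
      by_cases h2 : x - w = 0
      · rw [sub_eq_zero.1 h2]; exact Or.inl hw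
      · exact absurd (by rw [add_sub_cancel]; exact hx) (h w (x - w) hw h1 hd h2)
    have sub : ∀ (U : Submodule F (V m F)), (∀ x ∈ U, C N x) →
        (∀ x ∈ U, g.1 *ᵥ x ∈ W) ∨ (∀ x ∈ U, g.1 *ᵥ x ∈ W') := fun U hU => by
      by_contra hc
      rw [not_or] at hc
      simp only [not_forall] at hc
      obtain ⟨⟨x, hx, hxn⟩, y, hy, hyn⟩ := hc
      have hxp := (split _ (C_map hg (hU x hx))).resolve_left hxn
      have hyp := (split _ (C_map hg (hU y hy))).resolve_right hyn
      rcases split _ (C_map hg (hU (x + y) (U.add_mem hx hy))) with h1 | h1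
      · rw [Matrix.mulVec_add] at h1; exact hxn ((W.add_mem_iff_left hyp).1 h1)
      · rw [Matrix.mulVec_add] at h1; exact hyn ((W'.add_mem_iff_right hxp).1 h1)
    have hgW' := (sub W hCW).resolve_left hgW
    have hV : Module.finrank F (V m F) = 2 * m := by
      rw [Module.finrank_fintype_fun_eq_card, Fintype.card_sum, Fintype.card_fin]; omega
    rcases sub W' hCW' with h1 | h1
    · have htop : W ⊔ W' = ⊤ := eq_top_iff.2 fun x _ => by
        obtain ⟨w, hw, hd⟩ := hdec x
        exact Submodule.mem_sup.2 ⟨w, hw, x - w, hd, add_sub_cancel _ _⟩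
      have h2 := Submodule.finrank_sup_add_finrank_inf_eq W W'
      rw [htop, finrank_top, hV] at h2
      have h4 : W ⊓ W' = ⊥ := eq_bot_iff.2 fun x hx => (Submodule.mem_bot F).2 (hint x hx.1 hx.2)
      rw [h4, finrank_bot] at h2
      have hinj : Function.Injective (((g.1.mulVecLin.comp W'.subtype)).codRestrict W (fun x => h1 x.1 x.2)) := fun x y e =>
        Subtype.ext (mulVec_inj g (congrArg Subtype.val e))
      have h3 := LinearMap.finrank_le_finrank_of_injective hinj
      omega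
    · obtain ⟨w, hw, hw0⟩ := W.exists_mem_ne_zero_of_ne_bot hW0
      obtain ⟨a, ha, hda⟩ := hdec ((g⁻¹).1 *ᵥ w)
      have hwW' : w ∈ W' := by
        rw [← mulVec_cancel_inv g w, ← add_sub_cancel a ((g⁻¹).1 *ᵥ w), Matrix.mulVec_add]
        exact W'.add_mem (hgW' a ha) (h1 _ hda)
      exact hw0 (hint w hw hwW')
  refine top_of_C fun x => ?_
  obtain ⟨w, hw, hu⟩ := hdec x
  by_cases h1 : w = 0
  · rw [h1, sub_zero] at hu; exact hCW' x hu
  by_cases h2 : x - w = 0
  · rw [sub_eq_zero.1 h2]; exact hCW w hw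
  have hWorth : ∀ z ∈ W, z ∈ orth (W' : Set (V m F)) := fun z hz s hs => by rw [B_swap, hs z hz, neg_zero]
  obtain ⟨A, hA, hAw⟩ := trans_vec hnW (hWorth w0 hw0) (hWorth w hw) hw00 h1
  obtain ⟨A', hA', hAu⟩ := trans_vec hnW' hu0 hu hu00 h2
  have h3 := C_map (hTW' A' hA') (C_map (hTW A hA) hC0)
  rw [Matrix.mulVec_add, hAw, TS_le_fixer _ hA u0 hu0, Matrix.mulVec_add, TS_le_fixer _ hA' w hw, hAu, add_sub_cancel] at h3
  exact h3

/-- Translation to subgroups of the general linear group. -/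
theorem maximal {W : Submodule F (V m F)} (hmove : ∃ A : Sp m F, ¬ Stb W A)
    (h : ∀ N : Subgroup (Sp m F), (∀ A, Stb W A → A ∈ N) → ∀ g ∈ N, ¬ Stb W g → N = ⊤) :
    Cfsg.Geo.IsMaximalIn (Cfsg.spGL m F) (Cfsg.Geo.subspaceStabilizer W ⊓ Cfsg.spGL m F) := by
  classical
  let e := CfsgLib.Symplectic.Simple.toSpGL (m := m) (F := F)
  have hmem : ∀ A : Sp m F, (e A).1 ∈ Cfsg.Geo.subspaceStabilizer W ↔ Stb W A := fun A => by
    refine ⟨fun hA w hw => (hA w).1 hw, fun hA v => ⟨hA v, fun hv => ?_⟩⟩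
    let f : W → W := fun w => ⟨A.1 *ᵥ w.1, hA w.1 w.2⟩
    have hf : Function.Injective f := fun a b he => Subtype.ext (mulVec_inj A (congrArg Subtype.val he))
    obtain ⟨w, hw⟩ := (Finite.injective_iff_surjective.1 hf) ⟨_, hv⟩
    have h1 : A.1 *ᵥ w.1 = A.1 *ᵥ v := congrArg Subtype.val hw
    have h2 := congrArg (fun z => (A⁻¹).1 *ᵥ z) h1
    simp only [mulVec_inv_cancel] at h2
    rw [← h2]; exact w.2
  refine ⟨lt_of_le_of_ne inf_le_right fun heq => ?_, fun M hM hMK => or_iff_not_imp_left.2 fun hne => ?_⟩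
  · obtain ⟨A, hA⟩ := hmove
    exact hA ((hmem A).1 (heq.ge (e A).2).1)
  · obtain ⟨g, hgM, hgH⟩ := SetLike.exists_of_lt (lt_of_le_of_ne hM (Ne.symm hne))
    obtain ⟨G, hG⟩ : ∃ G, (e G).1 = g := ⟨e.symm ⟨g, hMK hgM⟩, by simp⟩
    have htop := h (M.comap ((Cfsg.spGL m F).subtype.comp e.toMonoidHom))
      (fun A hA => hM ⟨(hmem A).2 hA, (e A).2⟩) G (by show (e G).1 ∈ M; rw [hG]; exact hgM)
      (fun hs => hgH (hG ▸ ⟨(hmem G).2 hs, (e G).2⟩))
    refine le_antisymm hMK fun x hx => ?_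
    obtain ⟨X, hX⟩ : ∃ X, (e X).1 = x := ⟨e.symm ⟨x, hx⟩, by simp⟩
    have : X ∈ M.comap ((Cfsg.spGL m F).subtype.comp e.toMonoidHom) := htop ▸ Subgroup.mem_top X
    rw [← hX]; exact this

end CfsgLib.MaxSub.SpStab
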